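import Cfsg.Agent.M24Orbits.Objects

/-! The orbit decompositions for octad, sextet, trio and dodecad stabilizers. -/

set_option autoImplicit false
open Cfsg Cfsg.Agent.Golay
open scoped Pointwise

namespace Cfsg.Agent.M24Orbits

theorem roots_trio : ∀ P ∈ partsOctTri ++ partsSexTri, toSet P.2.1 ∈ trios := by
  intro P hP
  refine trio_of_list ?_
  revert P; decide +kernel

theorem roots_sextet : ∀ P ∈ partsOctSex ++ partsTriSex ++ partsDodSex ++ partsYSex,
    toSet P.2.1 ∈ sextets := by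
  intro P hP
  refine sextet_of_list ?_
  revert P; decide +kernel

theorem roots_octad : ∀ P ∈ partsOctOct ++ partsSexOct ++ partsTriOct, toSet P.2.1 ∈ octFams := by
  intro P hP
  refine octFam_of_list ?_
  revert P; decide +kernel

/-- Three orbits with given lengths making up `A`. -/
def ThreeOrbits {α : Type*} (A : Set α) (orb : α → Set α) (a b c : ℕ) : Prop :=
  ∃ X₁ ∈ A, ∃ X₂ ∈ A, ∃ X₃ ∈ A, (orb X₁).ncard = a ∧ (orb X₂).ncard = b ∧ (orb X₃).ncard = c ∧
    A = orb X₁ ∪ orb X₂ ∪ orb X₃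

/-- Four orbits with given lengths making up `A`. -/
def FourOrbits {α : Type*} (A : Set α) (orb : α → Set α) (a b c d : ℕ) : Prop :=
  ∃ X₁ ∈ A, ∃ X₂ ∈ A, ∃ X₃ ∈ A, ∃ X₄ ∈ A, (orb X₁).ncard = a ∧ (orb X₂).ncard = b ∧
    (orb X₃).ncard = c ∧ (orb X₄).ncard = d ∧ A = orb X₁ ∪ orb X₂ ∪ orb X₃ ∪ orb X₄

theorem three_of_cert {R gens : List ℕ} {P₁ P₂ P₃ : Part} {N : ℕ} {A : Set Fam}
    (h : partsOK R gens [P₁, P₂, P₃] N = true) (hA : ∀ g ∈ M24, ∀ X ∈ A, g • X ∈ A)
    (hN : A.ncard = N) (hroot : ∀ P ∈ [P₁, P₂, P₃], toSet P.2.1 ∈ A) {R' : Fam}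
    (hR : ∃ g ∈ M24, g • toSet R = R') :
    ThreeOrbits A (orbitSet R') P₁.2.2.2 P₂.2.2.2 P₃.2.2.2 := by
  obtain ⟨F, h1, h2, -⟩ := orbits_at h hA hN hroot hR
  exact ⟨F P₁, (h1 _ (by simp)).1, F P₂, (h1 _ (by simp)).1, F P₃, (h1 _ (by simp)).1,
    (h1 _ (by simp)).2, (h1 _ (by simp)).2, (h1 _ (by simp)).2, three_parts hA h1 h2⟩

theorem four_of_cert {R gens : List ℕ} {P₁ P₂ P₃ P₄ : Part} {N : ℕ} {A : Set Fam}
    (h : partsOK R gens [P₁, P₂, P₃, P₄] N = true) (hA : ∀ g ∈ M24, ∀ X ∈ A, g • X ∈ A)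
    (hN : A.ncard = N) (hroot : ∀ P ∈ [P₁, P₂, P₃, P₄], toSet P.2.1 ∈ A) {R' : Fam}
    (hR : ∃ g ∈ M24, g • toSet R = R') :
    FourOrbits A (orbitSet R') P₁.2.2.2 P₂.2.2.2 P₃.2.2.2 P₄.2.2.2 := by
  obtain ⟨F, h1, h2, -⟩ := orbits_at h hA hN hroot hR
  exact ⟨F P₁, (h1 _ (by simp)).1, F P₂, (h1 _ (by simp)).1, F P₃, (h1 _ (by simp)).1,
    F P₄, (h1 _ (by simp)).1, (h1 _ (by simp)).2, (h1 _ (by simp)).2, (h1 _ (by simp)).2,
    (h1 _ (by simp)).2, four_parts hA h1 h2⟩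

theorem ThreeOrbits.octads_of_fams {R : Fam} {a b c : ℕ}
    (h : ThreeOrbits octFams (orbitSet R) a b c) : ThreeOrbits octads (orbitSet R) a b c := by
  obtain ⟨_, ⟨o₁, h₁, rfl⟩, _, ⟨o₂, h₂, rfl⟩, _, ⟨o₃, h₃, rfl⟩, e1, e2, e3, e⟩ := h
  rw [octFam_orbit_ncard] at e1 e2 e3
  exact ⟨o₁, h₁, o₂, h₂, o₃, h₃, e1, e2, e3, octad_orbits3 e⟩

theorem sextets_oct (o : Finset GolayPt) (ho : o ∈ octads) :
    ThreeOrbits sextets (orbitSet ({o} : Fam)) 35 840 896 :=
  three_of_cert okOctSex (fun _ hg _ => smul_mem_sextets hg) sextets_ncard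
    (fun P hP => roots_sextet P (by simp only [List.mem_append]; exact Or.inl (Or.inl (Or.inl hP))))
    (octad_of_root ho)

theorem trios_oct (o : Finset GolayPt) (ho : o ∈ octads) :
    ThreeOrbits trios (orbitSet ({o} : Fam)) 15 420 3360 :=
  three_of_cert okOctTri (fun _ hg _ => smul_mem_trios hg) trios_ncard
    (fun P hP => roots_trio P (by simp only [List.mem_append]; exact Or.inl hP)) (octad_of_root ho)

theorem octads_sex (S : Fam) (hS : S ∈ sextets) : ThreeOrbits octads (orbitSet S) 15 360 384 :=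
  (three_of_cert okSexOct (fun _ hg _ => smul_mem_octFams hg) octFams_ncard
    (fun P hP => roots_octad P (by simp only [List.mem_append]; exact Or.inl (Or.inr hP)))
    (sextet_of_root hS)).octads_of_fams

theorem trios_sex (S : Fam) (hS : S ∈ sextets) : FourOrbits trios (orbitSet S) 15 180 720 2880 :=
  four_of_cert okSexTri (fun _ hg _ => smul_mem_trios hg) trios_ncard
    (fun P hP => roots_trio P (by simp only [List.mem_append]; exact Or.inr hP)) (sextet_of_root hS)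

theorem octads_tri (T : Fam) (hT : T ∈ trios) : ThreeOrbits octads (orbitSet T) 3 84 672 :=
  (three_of_cert okTriOct (fun _ hg _ => smul_mem_octFams hg) octFams_ncard
    (fun P hP => roots_octad P (by simp only [List.mem_append]; exact Or.inr hP))
    (trio_of_root hT)).octads_of_fams

theorem sextets_tri (T : Fam) (hT : T ∈ trios) : FourOrbits sextets (orbitSet T) 7 84 336 1344 :=
  four_of_cert okTriSex (fun _ hg _ => smul_mem_sextets hg) sextets_ncard
    (fun P hP => roots_sextet P (by simp only [List.mem_append]; exact Or.inl (Or.inl (Or.inr hP))))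
    (trio_of_root hT)

theorem sextets_dod (d : Finset GolayPt) (hd : d ∈ dodecads) :
    ThreeOrbits sextets (orbitSet ({d, Finset.univ \ d} : Fam)) 396 495 880 :=
  three_of_cert okDodSex (fun _ hg _ => smul_mem_sextets hg) sextets_ncard
    (fun P hP => roots_sextet P (by simp only [List.mem_append]; exact Or.inl (Or.inr hP)))
    (dod_of_root hd)

end Cfsg.Agent.M24Orbits
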