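import Cfsg.Agent.M24Orbits.Elements2

/-! The centraliser of a fixed-point-free involution of M24. -/

set_option autoImplicit false
open Cfsg Cfsg.Agent.Golay
open scoped Pointwise

namespace Cfsg.Agent.M24Orbits

/-- Centraliser of the representative. -/
def cent2b : Subgroup (Equiv.Perm GolayPt) :=
  M24 ⊓ Subgroup.centralizer {permOf r2b}

theorem mem_cent2b {g : Equiv.Perm GolayPt} :
    g ∈ cent2b ↔ g ∈ M24 ∧ g * permOf r2b = permOf r2b * g := by
  simp [cent2b, Subgroup.mem_centralizer_singleton_iff, eq_comm]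

/-- The tetrad of the distinguished sextet through the first point. -/
def tet2b : ℕ := (sext2b.find? fun m => m.testBit 23).getD 0

/-- Elements in the centraliser. -/
def centB (c : ℕ) : Bool := isAut c && sqB c r2b r2b c

/-- Images of the six certificate points when the fourth base point goes to `v`. -/
def ys2b (v : ℕ) : List ℕ := [23, app r2b 23, 0, app r2b 0, v, app r2b v]

/-- What may happen at the last level. -/
def lastB (v : ℕ) : Bool :=
  (ys2b v).any (fun a => decide (1 < (ys2b v).count a)) ||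
  ((cand2b.getD v (0, 0)).1 == 1 &&
    let o := (cand2b.getD v (0, 0)).2
    inC o && pc o == 8 && (ys2b v).all fun a => o.testBit a) ||
  ((cand2b.getD v (0, 0)).2 :: lvl2b.getD 3 []).any fun h =>
    isAut h && ((List.range 6).all fun i => app h (six2b.getD i 0) == (ys2b v).getD i 0) &&
      fix2b.all fun f => !sqB (comp h f) r2b r2b (comp h f) || !(app (comp h f) 8 == 8) ||
        (lvl2b.getD 3 []).any fun l => (List.range 24).all fun i => app l i == app (comp h f) i

theorem cent_levels_ok :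
    ((lvl2b.all fun l => l.all centB) &&
    ((List.range 24).all fun v => (lvl2b.getD 0 []).any fun g => app g 23 == v) &&
    ((List.range 24).all fun v => !(v == 8 || v == app r2b 8) ||
      (lvl2b.getD 1 []).any fun g => app g 23 == 23 && app g 8 == v) &&
    ((List.range 24).all fun v => tet2b.testBit v ||
      (lvl2b.getD 2 []).any fun g => app g 23 == 23 && app g 8 == 8 && app g 0 == v) &&
    ((lvl2b.getD 3 []).all fun g => app g 23 == 23 && app g 8 == 8 && app g 0 == 0) &&
    decide ((lvl2b.getD 3 []).map fun g => app g 1).Nodup) = true := by decide +kernel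

theorem last_ok : ((List.range 24).all lastB) = true := by decide +kernel

theorem fix2b_ok : fixerOK (2 ^ 23 + 2 ^ 6 + 2 ^ 0 + 2 ^ 4 + 2 ^ 1 + 2 ^ 2) 0 fix2b = true ∧
    app r2b 23 = 6 ∧ app r2b 0 = 4 ∧ app r2b 1 = 2 ∧ six2b = [23, 6, 0, 4, 1, 2] := by decide +kernel

theorem sext2b_ok :
    (sextetB sext2b && (sext2b.all fun u => mapMask r2b u == u && decide (u < 2 ^ 24) &&
        (!u.testBit 23 || u == tet2b)) &&
      tet2b.testBit 23 && tet2b.testBit 8 && !tet2b.testBit 0 && sext2b.contains tet2b &&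
      ((List.range 24).all fun v => !tet2b.testBit v || [23, app r2b 23, 8, app r2b 8].contains v) &&
      (partsOctSex.flatMap (partList gensOct)).all fun x =>
        x == sext2b || !(x.all fun u => mapMask r2b u == u)) = true := by decide +kernel

theorem unique_sextet {X : Fam} (hX : X ∈ sextets) (hfix : ∀ u ∈ X, permOf r2b • u = u) :
    X = toSet sext2b := by
  have hroot : ∀ P ∈ partsOctSex, toSet P.2.1 ∈ sextets :=
    fun P hP => sextet_of_list ((by decide +kernel : ∀ P ∈ partsOctSex, sextetB P.2.1 = true) P hP)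
  obtain ⟨-, -, -, hcov⟩ := partsOK_spec okOctSex (fun _ hg _ => smul_mem_sextets hg) sextets_ncard hroot
  obtain ⟨x, hx, rfl⟩ := hcov X hX
  have hasc : ((partsOctSex.flatMap (partList gensOct)).all ascB) = true := by decide +kernel
  have hok := sext2b_ok
  simp only [Bool.and_eq_true, List.all_eq_true, Bool.or_eq_true, beq_iff_eq, Bool.not_eq_true',
    List.all_eq_false] at hok
  rcases hok.2 x hx with rfl | ⟨u, hu, hne⟩
  · rfl
  · refine absurd ?_ hne
    have hlt : u < 2 ^ 24 := (ascB_spec (List.all_eq_true.1 hasc x hx)).2 u hu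
    have h := congrArg mask (hfix (bset u) (mem_toSet.2 ⟨u, hu, rfl⟩))
    rwa [mask_smul (rep_fix (r := r2b) (by simp)).1, mask_bset hlt] at h

theorem cent_sextet {g : Equiv.Perm GolayPt} (hg : g ∈ cent2b) : g • toSet sext2b = toSet sext2b := by
  obtain ⟨hgM, hgc⟩ := mem_cent2b.1 hg
  have hok := sext2b_ok
  simp only [Bool.and_eq_true, List.all_eq_true, beq_iff_eq] at hok
  obtain ⟨⟨⟨⟨⟨⟨⟨hS, hall⟩, -⟩, -⟩, -⟩, -⟩, -⟩, -⟩ := hok
  refine unique_sextet (smul_mem_sextets hgM (sextet_of_list hS)) fun u hu => ?_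
  obtain ⟨w, hw, rfl⟩ := Finset.mem_smul_finset.1 hu
  obtain ⟨m, hm, rfl⟩ := mem_toSet.1 hw
  rw [← mul_smul, ← hgc, mul_smul, ← bset_mapMask (rep_fix (r := r2b) (by simp)).1, (hall m hm).1.1]

theorem cent_pt {g : Equiv.Perm GolayPt} (hg : g ∈ cent2b) (i : ℕ) (hi : i < 24) :
    idx (g (pt (app r2b i))) = app r2b (idx (g (pt i))) := by
  have hok := (rep_fix (r := r2b) (by simp)).1
  have h : permOf r2b (pt i) = pt (app r2b i) := by
    rw [← pt_idx (permOf r2b (pt i)), idx_permOf hok, idx_pt hi]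
  rw [← h, ← Equiv.Perm.mul_apply, (mem_cent2b.1 hg).2, Equiv.Perm.mul_apply, idx_permOf hok]

theorem cent_tet {g : Equiv.Perm GolayPt} (hg : g ∈ cent2b) (hp : g (pt 23) = pt 23) :
    g • bset tet2b = bset tet2b := by
  have hok := sext2b_ok
  simp only [Bool.and_eq_true, List.all_eq_true, Bool.or_eq_true, beq_iff_eq, Bool.not_eq_true',
    List.contains_iff_mem, decide_eq_true_eq] at hok
  obtain ⟨⟨⟨⟨⟨⟨⟨-, hall⟩, h23⟩, -⟩, -⟩, hmem⟩, -⟩, -⟩ := hok
  have h : g • bset tet2b ∈ toSet sext2b := by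
    rw [← cent_sextet hg]
    exact Finset.smul_mem_smul_finset (mem_toSet.2 ⟨_, hmem, rfl⟩)
  obtain ⟨m, hm, e⟩ := mem_toSet.1 h
  have h23' : pt 23 ∈ g • bset tet2b := by
    have : pt 23 ∈ bset tet2b := by rw [mem_bset, idx_pt (by norm_num)]; exact h23
    have h' := Finset.smul_mem_smul_finset (a := g) this
    rwa [Equiv.Perm.smul_def, hp] at h'
  rw [← e, mem_bset, idx_pt (by norm_num)] at h23'
  rcases (hall m hm).2 with hf | hf
  · rw [hf] at h23'; exact absurd h23' (by simp)
  · rw [← e, hf]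

theorem code_eq_pt {c : ℕ} (hc : centB c = true) :
    permOf c ∈ cent2b ∧ ∀ i < 24, permOf c (pt i) = pt (app c i) := by
  simp only [centB, Bool.and_eq_true] at hc
  have hok := permOK_of_isAut hc.1
  have hr := (rep_fix (r := r2b) (by simp)).1
  refine ⟨mem_cent2b.2 ⟨permOf_mem_M24 hc.1, (sqB_iff hok hr hr hok).1 hc.2⟩, fun i hi => ?_⟩
  rw [← pt_idx (permOf c (pt i)), idx_permOf hok, idx_pt hi]

theorem cent_last {g : Equiv.Perm GolayPt} (hg : g ∈ cent2b) (hp : g (pt 23) = pt 23)
    (hq : g (pt 8) = pt 8) (hr : g (pt 0) = pt 0) :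
    ∃ l ∈ lvl2b.getD 3 [], permOf l = g := by
  classical
  obtain ⟨hgM, hgc⟩ := mem_cent2b.1 hg
  obtain ⟨hF, h23, h0, h1, hsix⟩ := fix2b_ok
  set v := idx (g (pt 1)) with hv
  have hv24 : v < 24 := idx_lt _
  have himg : ∀ i < 6, idx (g (pt (six2b.getD i 0))) = (ys2b v).getD i 0 ∧ six2b.getD i 0 < 24 := by
    have e6 : idx (g (pt 6)) = app r2b 23 := by
      rw [← h23, cent_pt hg 23 (by norm_num), hp, idx_pt (by norm_num)]
    have e4 : idx (g (pt 4)) = app r2b 0 := by
      rw [← h0, cent_pt hg 0 (by norm_num), hr, idx_pt (by norm_num)]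
    have e2 : idx (g (pt 2)) = app r2b v := by rw [← h1, cent_pt hg 1 (by norm_num)]
    intro i hi
    interval_cases i <;> simp [hsix, ys2b, e6, e4, e2, hp, hr, hv, idx_pt]
  have hinj : ∀ i < 6, ∀ j < 6, (ys2b v).getD i 0 = (ys2b v).getD j 0 → i = j := by
    intro i hi j hj e
    rw [← (himg i hi).1, ← (himg j hj).1] at e
    have e' := congrArg idx (g.injective (idx_injective e))
    rw [idx_pt (himg i hi).2, idx_pt (himg j hj).2] at e'
    have hnd : ∀ i < 6, ∀ j < 6, six2b.getD i 0 = six2b.getD j 0 → i = j := by decide +kernel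
    exact hnd i hi j hj e'
  have hl : lastB v = true := List.all_eq_true.1 last_ok v (List.mem_range.2 hv24)
  simp only [lastB, Bool.or_eq_true, List.any_eq_true, decide_eq_true_eq, Bool.and_eq_true,
    beq_iff_eq, List.all_eq_true, Bool.not_eq_true'] at hl
  have hsub : ∀ p ∈ bset (2 ^ 23 + 2 ^ 6 + 2 ^ 0 + 2 ^ 4 + 2 ^ 1 + 2 ^ 2),
      ∃ i < 6, six2b.getD i 0 = idx p := by
    have : ∀ j < 24, (2 ^ 23 + 2 ^ 6 + 2 ^ 0 + 2 ^ 4 + 2 ^ 1 + 2 ^ 2 : ℕ).testBit j = true →
        ∃ i < 6, six2b.getD i 0 = j := by decide +kernel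
    exact fun p hpm => this _ (idx_lt p) (mem_bset.1 hpm)
  rcases hl with (⟨a, -, hcount⟩ | ⟨-, ⟨hO, hO8⟩, hall⟩) | ⟨h, hmem, ⟨haut, hmap⟩, hf⟩
  · exfalso
    have hnd : (ys2b v).Nodup := by
      rw [List.nodup_iff_injective_get]
      intro i j e
      have hlen : (ys2b v).length = 6 := rfl
      refine Fin.ext (hinj i (hlen ▸ i.2) j (hlen ▸ j.2) ?_)
      rw [List.getD_eq_getElem _ _ i.2, List.getD_eq_getElem _ _ j.2]
      exact e
    have := List.nodup_iff_count_le_one.1 hnd a
    omega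
  · exfalso
    set O := (cand2b.getD v (0, 0)).2
    have ho : bset O ∈ octads := octad_of_mask (by simp [hO, hO8])
    have hsubO : bset (2 ^ 23 + 2 ^ 6 + 2 ^ 0 + 2 ^ 4 + 2 ^ 1 + 2 ^ 2) ⊆ g⁻¹ • bset O := by
      intro p hpm
      obtain ⟨i, hi, e⟩ := hsub p hpm
      rw [Finset.mem_inv_smul_finset_iff, Equiv.Perm.smul_def, mem_bset]
      refine hall _ ?_
      have h6 := (himg i hi).1
      rw [e, pt_idx] at h6
      rw [h6, List.getD_eq_getElem _ _ (show i < (ys2b v).length from hi)]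
      exact List.getElem_mem _
    obtain ⟨i, hi, h8, hie⟩ := octad_supset (smul_mem_octads (inv_mem hgM) ho) hsubO (by norm_num)
    simp only [fixerOK, Bool.and_eq_true, Bool.or_eq_true, beq_iff_eq] at hF
    rcases hF.2 with ⟨⟨⟨hl16, -⟩, -⟩, -⟩ | ⟨-, hno⟩
    · have : fix2b.length = 3 := by decide +kernel
      omega
    · have := allB_spec _ 12 0 hno i (Nat.zero_le _) (by simpa using hi)
      simp [h8] at this
      exact this (by simpa using hie)
  · have hok := permOK_of_isAut haut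
    obtain ⟨f, hfm, hfok, hfe⟩ := fixerOK_spec hF (by norm_num) (g := (permOf h)⁻¹ * g)
      (mul_mem (inv_mem (permOf_mem_M24 haut)) hgM) (by
        intro p hpm
        obtain ⟨i, hi, e⟩ := hsub p hpm
        rw [Equiv.Perm.mul_apply, Equiv.Perm.inv_eq_iff_eq]
        apply idx_injective
        rw [idx_permOf hok, ← e, hmap i (List.mem_range.2 hi), ← (himg i hi).1, e, pt_idx])
    obtain ⟨hcok, hce⟩ := permOf_comp hok hfok
    rw [hfe, mul_inv_cancel_left] at hce
    rcases hf f hfm with (hs | h8) | ⟨l, hl3, heq⟩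
    · have hr2 := (rep_fix (r := r2b) (by simp)).1
      have := mt (sqB_iff hcok hr2 hr2 hcok).2 (by simp [hs])
      rw [hce] at this
      exact absurd hgc this
    · exfalso
      have e8 := idx_permOf hcok (pt 8)
      rw [hce, hq, idx_pt (by norm_num)] at e8
      rw [← e8] at h8
      simp at h8
    · have hlok : permOK l = true := by
        have h := cent_levels_ok
        simp only [Bool.and_eq_true, List.all_eq_true, centB] at h
        exact permOK_of_isAut (h.1.1.1.1.1 _ (by
          rw [List.getD_eq_getElem _ _ (show 3 < lvl2b.length by decide +kernel)]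
          exact List.getElem_mem _) l hl3).1
      refine ⟨l, hl3, Equiv.ext fun q => idx_injective ?_⟩
      rw [idx_permOf hlok, heq _ (List.mem_range.2 (idx_lt q)), ← idx_permOf hcok, hce]

theorem cent2b_transitive (p q : GolayPt) : ∃ c ∈ cent2b, c p = q := by
  have h := cent_levels_ok
  simp only [Bool.and_eq_true, List.all_eq_true, List.any_eq_true, beq_iff_eq] at h
  obtain ⟨⟨⟨⟨⟨hall, h0⟩, -⟩, -⟩, -⟩, -⟩ := h
  have hget : ∀ v : GolayPt, ∃ c ∈ cent2b, c (pt 23) = v := by
    intro v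
    obtain ⟨g, hg, e⟩ := h0 (idx v) (List.mem_range.2 (idx_lt v))
    have hlv : lvl2b.getD 0 [] ∈ lvl2b := by
      rw [List.getD_eq_getElem _ _ (show 0 < lvl2b.length by decide +kernel)]
      exact List.getElem_mem _
    obtain ⟨hc, hpt⟩ := code_eq_pt (hall _ hlv g hg)
    exact ⟨_, hc, by rw [hpt 23 (by norm_num), e, pt_idx]⟩
  obtain ⟨a, ha, ea⟩ := hget p
  obtain ⟨b, hb, eb⟩ := hget q
  exact ⟨b * a⁻¹, mul_mem hb (inv_mem ha), by
    rw [Equiv.Perm.mul_apply, ← ea, Equiv.Perm.coe_inv, Equiv.symm_apply_apply, eb]⟩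

theorem cent2b_card : Nat.card cent2b = 7680 := by
  classical
  have h := cent_levels_ok
  simp only [Bool.and_eq_true, List.all_eq_true, List.any_eq_true, beq_iff_eq, Bool.or_eq_true,
    Bool.not_eq_true', decide_eq_true_eq, Bool.or_eq_false_iff, beq_eq_false_iff_ne] at h
  obtain ⟨⟨⟨⟨⟨hall, -⟩, h1⟩, h2⟩, h3⟩, hnd⟩ := h
  have hlv : ∀ k, k < 4 → lvl2b.getD k [] ∈ lvl2b := by
    intro k hk
    rw [List.getD_eq_getElem _ _ (show k < lvl2b.length from (by decide +kernel : lvl2b.length = 4) ▸ hk)]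
    exact List.getElem_mem _
  set S1 := cent2b ⊓ MulAction.stabilizer (Equiv.Perm GolayPt) (pt 23) with hS1
  set S2 := S1 ⊓ MulAction.stabilizer (Equiv.Perm GolayPt) (pt 8) with hS2
  set S3 := S2 ⊓ MulAction.stabilizer (Equiv.Perm GolayPt) (pt 0) with hS3
  have c1 : Nat.card cent2b = 24 * Nat.card S1 := by
    have := card_eq_orbit_mul_stab cent2b (pt 23) Finset.univ (fun t _ => cent2b_transitive _ t)
      (fun _ _ => Finset.mem_univ _)
    rwa [show (Finset.univ : Finset GolayPt).card = 24 by decide] at this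
  have c2 : Nat.card S1 = 2 * Nat.card S2 := by
    have hT : (bset (2 ^ 8 + 2 ^ app r2b 8)).card = 2 := by decide +kernel
    rw [← hT]
    refine card_eq_orbit_mul_stab S1 (pt 8) _ (fun t ht => ?_) (fun g hg => ?_)
    · have hv : idx t = 8 ∨ idx t = app r2b 8 := by
        have : ∀ j < 24, (2 ^ 8 + 2 ^ app r2b 8 : ℕ).testBit j = true → j = 8 ∨ j = app r2b 8 := by
          decide +kernel
        exact this _ (idx_lt t) (mem_bset.1 ht)
      rcases h1 (idx t) (List.mem_range.2 (idx_lt t)) with hn | ⟨g, hg, e1, e2⟩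
      · tauto
      · obtain ⟨hc, hpt⟩ := code_eq_pt (hall _ (hlv 1 (by norm_num)) g hg)
        exact ⟨_, ⟨hc, by show permOf g (pt 23) = pt 23; rw [hpt 23 (by norm_num), e1]⟩,
          by rw [hpt 8 (by norm_num), e2, pt_idx]⟩
    · obtain ⟨hgc, hgp⟩ := hg
      have hgp' : g (pt 23) = pt 23 := hgp
      have hok := sext2b_ok
      simp only [Bool.and_eq_true, List.all_eq_true, Bool.or_eq_true, Bool.not_eq_true',
        List.contains_iff_mem] at hok
      obtain ⟨⟨⟨⟨⟨-, h8⟩, -⟩, -⟩, hfour⟩, -⟩ := hok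
      have hm : g (pt 8) ∈ bset tet2b := by
        rw [← cent_tet hgc hgp']
        exact Finset.smul_mem_smul_finset (by rw [mem_bset, idx_pt (by norm_num)]; exact h8)
      rw [mem_bset] at hm ⊢
      rcases hfour _ (List.mem_range.2 (idx_lt _)) with hf | hf
      · rw [hf] at hm; exact absurd hm (by simp)
      simp only [List.mem_cons, List.not_mem_nil, or_false] at hf
      rcases hf with e | e | e | e
      · exfalso
        have := congrArg pt e
        rw [pt_idx, ← hgp'] at this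
        have := congrArg idx (g.injective this)
        rw [idx_pt (by norm_num), idx_pt (by norm_num)] at this
        omega
      · exfalso
        have h23 := cent_pt hgc 23 (by norm_num)
        rw [hgp', idx_pt (show (23 : ℕ) < 24 by norm_num)] at h23
        have := congrArg idx (g.injective (idx_injective (h23.trans e.symm)))
        rw [idx_pt (app_r2b_lt _ (by norm_num)), idx_pt (by norm_num)] at this
        exact absurd this (by decide +kernel)
      · rw [e]; decide +kernel
      · rw [e]; decide +kernel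
  have c3 : Nat.card S2 = 20 * Nat.card S3 := by
    have hT : ((bset tet2b)ᶜ).card = 20 := by decide +kernel
    rw [← hT]
    refine card_eq_orbit_mul_stab S2 (pt 0) _ (fun t ht => ?_) (fun g hg => ?_)
    · rw [Finset.mem_compl, mem_bset] at ht
      rcases h2 (idx t) (List.mem_range.2 (idx_lt t)) with hn | ⟨g, hg, ⟨e1, e2⟩, e3⟩
      · exact absurd hn ht
      · obtain ⟨hc, hpt⟩ := code_eq_pt (hall _ (hlv 2 (by norm_num)) g hg)
        exact ⟨_, ⟨⟨hc, by show permOf g (pt 23) = pt 23; rw [hpt 23 (by norm_num), e1]⟩,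
          by show permOf g (pt 8) = pt 8; rw [hpt 8 (by norm_num), e2]⟩,
          by rw [hpt 0 (by norm_num), e3, pt_idx]⟩
    · obtain ⟨⟨hgc, hgp⟩, -⟩ := hg
      rw [Finset.mem_compl]
      intro hm
      rw [← cent_tet hgc hgp] at hm
      have h0 : pt 0 ∈ bset tet2b := (Finset.smul_mem_smul_finset_iff g).1 hm
      exact absurd h0 (by decide +kernel)
  have c4 : Nat.card S3 = 8 := by
    have hlen : (lvl2b.getD 3 []).length = 8 := by decide +kernel
    have heq : (S3 : Set (Equiv.Perm GolayPt)) =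
        (((lvl2b.getD 3 []).map permOf).toFinset : Set (Equiv.Perm GolayPt)) := by
      ext g
      simp only [Finset.mem_coe, List.mem_toFinset, List.mem_map, SetLike.mem_coe]
      constructor
      · rintro ⟨⟨⟨hgc, hgp⟩, hgq⟩, hgr⟩
        exact cent_last hgc hgp hgq hgr
      · rintro ⟨l, hl, rfl⟩
        obtain ⟨hc, hpt⟩ := code_eq_pt (hall _ (hlv 3 (by norm_num)) l hl)
        obtain ⟨⟨e1, e2⟩, e3⟩ := h3 l hl
        exact ⟨⟨⟨hc, by show permOf l (pt 23) = pt 23; rw [hpt 23 (by norm_num), e1]⟩,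
          by show permOf l (pt 8) = pt 8; rw [hpt 8 (by norm_num), e2]⟩,
          by show permOf l (pt 0) = pt 0; rw [hpt 0 (by norm_num), e3]⟩
    rw [show Nat.card S3 = (S3 : Set (Equiv.Perm GolayPt)).ncard from Nat.card_coe_set_eq _, heq,
      Set.ncard_coe_finset, List.toFinset_card_of_nodup, List.length_map, hlen]
    refine List.Nodup.map_on (fun x hx y hy e => List.inj_on_of_nodup_map hnd hx hy ?_)
      (List.Nodup.of_map _ hnd)
    have hx' := (code_eq_pt (hall _ (hlv 3 (by norm_num)) x hx)).2 1 (by norm_num)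
    have hy' := (code_eq_pt (hall _ (hlv 3 (by norm_num)) y hy)).2 1 (by norm_num)
    have hlt : ∀ l ∈ lvl2b.getD 3 [], app l 1 < 24 := by decide +kernel
    rw [e, hy'] at hx'
    have := congrArg idx hx'
    rw [idx_pt (hlt y hy), idx_pt (hlt x hx)] at this
    exact this.symm
  rw [c1, c2, c3, c4]
where
  app_r2b_lt : ∀ i < 24, app r2b i < 24 := by decide +kernel

theorem fpf_involution_centralizer {t : Equiv.Perm GolayPt} (ht : t ∈ M24) (h₂ : orderOf t = 2)
    (h₀ : ∀ p, t p ≠ p) :
    Nat.card {c : Equiv.Perm GolayPt // c ∈ M24 ∧ c * t = t * c} = 7680 ∧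
      (∀ p q : GolayPt, ∃ c ∈ M24, c * t = t * c ∧ c p = q) ∧
      ∃ S ∈ sextets, t • S = S ∧ ∀ c ∈ M24, c * t = t * c → c • S = S := by
  obtain ⟨h, hh, rfl⟩ := (two_conj ht h₂).2 (filter_card_zero h₀)
  have hconj : ∀ c, c ∈ M24 ∧ c * (h * permOf r2b * h⁻¹) = h * permOf r2b * h⁻¹ * c ↔
      h⁻¹ * c * h ∈ cent2b := by
    intro c
    rw [mem_cent2b]
    constructor
    · rintro ⟨hc, e⟩
      refine ⟨mul_mem (mul_mem (inv_mem hh) hc) hh, ?_⟩
      calc h⁻¹ * c * h * permOf r2b = h⁻¹ * (c * (h * permOf r2b * h⁻¹)) * h := by group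
        _ = h⁻¹ * (h * permOf r2b * h⁻¹ * c) * h := by rw [e]
        _ = _ := by group
    · rintro ⟨hc, e⟩
      refine ⟨by simpa [mul_assoc] using mul_mem (mul_mem hh hc) (inv_mem hh), ?_⟩
      calc c * (h * permOf r2b * h⁻¹) = h * (h⁻¹ * c * h * permOf r2b) * h⁻¹ := by group
        _ = h * (permOf r2b * (h⁻¹ * c * h)) * h⁻¹ := by rw [e]
        _ = _ := by group
  refine ⟨?_, fun p q => ?_, ?_⟩
  · rw [← cent2b_card]
    exact Nat.card_congr
      { toFun := fun c => ⟨h⁻¹ * c.1 * h, (hconj c.1).1 c.2⟩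
        invFun := fun g => ⟨h * g.1 * h⁻¹, (hconj _).2 (by
          rw [show h⁻¹ * (h * g.1 * h⁻¹) * h = g.1 by group]; exact g.2)⟩
        left_inv := fun c => Subtype.ext (by group)
        right_inv := fun g => Subtype.ext (by group) }
  · obtain ⟨g, hg, e⟩ := cent2b_transitive (h⁻¹ p) (h⁻¹ q)
    have hm := (hconj (h * g * h⁻¹)).2 (by rw [show h⁻¹ * (h * g * h⁻¹) * h = g by group]; exact hg)
    exact ⟨_, hm.1, hm.2, by rw [Equiv.Perm.mul_apply, Equiv.Perm.mul_apply, e]; simp⟩
  · have hS : toSet sext2b ∈ sextets := by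
      have hok := sext2b_ok
      simp only [Bool.and_eq_true] at hok
      exact sextet_of_list hok.1.1.1.1.1.1.1
    have key : ∀ c, h⁻¹ * c * h ∈ cent2b → c • h • toSet sext2b = h • toSet sext2b := by
      intro c hc
      calc c • h • toSet sext2b = h • (h⁻¹ * c * h) • toSet sext2b := by
            rw [← mul_smul, ← mul_smul]; group
        _ = _ := by rw [cent_sextet hc]
    refine ⟨h • toSet sext2b, smul_mem_sextets hh hS, key _ ?_, fun c hc e => key c ((hconj c).1 ⟨hc, e⟩)⟩
    exact (hconj _).1 ⟨ht, rfl⟩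

end Cfsg.Agent.M24Orbits
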