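import Cfsg.Agent.M24Orbits.Orbits

/-! Classes cut out by an invariant property are single orbits. -/

set_option autoImplicit false
open Cfsg Cfsg.Agent.Golay
open scoped Pointwise

namespace Cfsg.Agent.M24Orbits

/-- A property transported by permutations. -/
def Equivariant {β : Type*} (c : Fam → Fam → β) : Prop :=
  ∀ (g : Equiv.Perm GolayPt) (R X : Fam), c (g • R) (g • X) = c R X

theorem class_of_cert {β : Type*} {R gens : List ℕ} {Ps : List Part} {N : ℕ} {A : Set Fam}
    (h : partsOK R gens Ps N = true) (hA : ∀ g ∈ M24, ∀ X ∈ A, g • X ∈ A) (hN : A.ncard = N)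
    (hroot : ∀ P ∈ Ps, toSet P.2.1 ∈ A) {c : Fam → Fam → β} (hc : Equivariant c) {val : β}
    {n : ℕ} {Q : Part} (hQ : Q ∈ Ps) (hQn : Q.2.2.2 = n) (hQc : c (toSet R) (toSet Q.2.1) = val)
    (honly : ∀ P ∈ Ps, c (toSet R) (toSet P.2.1) = val → P = Q) {R' : Fam}
    (hR : ∃ g ∈ M24, g • toSet R = R') :
    {X | X ∈ A ∧ c R' X = val}.ncard = n ∧
      ∀ X Y : Fam, X ∈ A → Y ∈ A → c R' X = val → c R' Y = val → Y ∈ orbitSet R' X := by
  obtain ⟨g, hg, rfl⟩ := hR
  obtain ⟨h1, h2, -, -⟩ := partsOK_spec h hA hN hroot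
  have hcov : ∀ X ∈ A, c (g • toSet R) X = val → X ∈ orbitSet (g • toSet R) (g • toSet Q.2.1) := by
    intro X hX hv
    obtain ⟨P, hP, hm⟩ := h2 (g⁻¹ • X) (hA _ (inv_mem hg) X hX)
    have hPQ : P = Q := by
      refine honly P hP ?_
      obtain ⟨k, -, hkR, hk⟩ := hm
      rw [← hc k, hkR, hk, ← hc g, smul_inv_smul, hv]
    subst hPQ
    rw [orbitSet_conj hg]
    exact ⟨_, hm, smul_inv_smul g X⟩
  have heq : {X | X ∈ A ∧ c (g • toSet R) X = val} = orbitSet (g • toSet R) (g • toSet Q.2.1) := by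
    ext X
    constructor
    · exact fun hX => hcov X hX.1 hX.2
    · rintro ⟨k, hk, hkR, rfl⟩
      refine ⟨hA k hk _ (hA g hg _ (hroot Q hQ)), ?_⟩
      conv_lhs => rw [← hkR, hc, hc]
      exact hQc
  refine ⟨by rw [heq, orbitSet_conj_ncard hg, h1 Q hQ, hQn], fun X Y hX hY hXv hYv => ?_⟩
  obtain ⟨k, hk, hkR, hkX⟩ := hcov X hX hXv
  obtain ⟨l, hl, hlR, hlY⟩ := hcov Y hY hYv
  refine ⟨l * k⁻¹, mul_mem hl (inv_mem hk), ?_, ?_⟩
  · rw [mul_smul, inv_smul_eq_iff.2 hkR.symm, hlR]
  · rw [mul_smul, ← hkX, inv_smul_smul, hlY]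

/-- Number of members of `X` meeting the members of `R`. -/
def meetCount (R X : Fam) : ℕ := (X.filter fun t => (t ∩ R.biUnion id).Nonempty).card

theorem meetCount_equivariant : Equivariant meetCount := by
  intro g R X
  have hU : (g • R).biUnion id = g • R.biUnion id := by
    ext p
    simp only [Finset.mem_biUnion, id_eq]
    constructor
    · rintro ⟨t, ht, hp⟩
      obtain ⟨s, hs, rfl⟩ := Finset.mem_smul_finset.1 ht
      obtain ⟨q, hq, rfl⟩ := Finset.mem_smul_finset.1 hp
      exact Finset.smul_mem_smul_finset (Finset.mem_biUnion.2 ⟨s, hs, hq⟩)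
    · intro hp
      obtain ⟨q, hq, rfl⟩ := Finset.mem_smul_finset.1 hp
      obtain ⟨s, hs, hq⟩ := Finset.mem_biUnion.1 hq
      exact ⟨g • s, Finset.smul_mem_smul_finset hs, Finset.smul_mem_smul_finset hq⟩
  unfold meetCount
  rw [hU, show g • X = X.image (g • ·) from Finset.image_smul.symm, Finset.filter_image,
    Finset.card_image_of_injective _ (MulAction.injective g)]
  refine congrArg Finset.card (Finset.filter_congr fun t _ => ?_)
  rw [← Finset.smul_finset_inter, ← Finset.card_pos, Finset.card_smul_finset, Finset.card_pos]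

theorem sextet_classes (Y : Finset GolayPt) (hY : Y.card = 3) :
    {S : Fam | S ∈ sextets ∧ (S.filter fun t => (t ∩ Y).Nonempty).card = 1}.ncard = 21 ∧
    {S : Fam | S ∈ sextets ∧ (S.filter fun t => (t ∩ Y).Nonempty).card = 2}.ncard = 630 ∧
    {S : Fam | S ∈ sextets ∧ (S.filter fun t => (t ∩ Y).Nonempty).card = 3}.ncard = 1120 ∧
    ∀ S S' : Fam, S ∈ sextets → S' ∈ sextets →
      (S.filter fun t => (t ∩ Y).Nonempty).card = (S'.filter fun t => (t ∩ Y).Nonempty).card →
      ∃ g ∈ M24, g • Y = Y ∧ g • S = S' := by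
  have hmc : ∀ S : Fam, meetCount ({Y} : Fam) S = (S.filter fun t => (t ∩ Y).Nonempty).card := by
    intro S; simp [meetCount]
  have hroot : ∀ P ∈ partsYSex, toSet P.2.1 ∈ sextets := fun P hP =>
    roots_sextet P (by simp only [List.mem_append]; exact Or.inr hP)
  have key : partsYSex.map (fun P => (P.2.2.2, meetCount (toSet rootY) (toSet P.2.1))) =
      [(21, 1), (630, 2), (1120, 3)] := by decide +kernel
  have hlen : partsYSex.length = 3 := rfl
  have hcl : ∀ i : Fin 3, {S : Fam | S ∈ sextets ∧ meetCount ({Y} : Fam) S = i.val + 1}.ncard =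
      [21, 630, 1120].getD i 0 ∧ ∀ X Z : Fam, X ∈ sextets → Z ∈ sextets →
        meetCount ({Y} : Fam) X = i.val + 1 → meetCount ({Y} : Fam) Z = i.val + 1 →
        Z ∈ orbitSet ({Y} : Fam) X := by
    intro i
    have hi : i.val < partsYSex.length := by rw [hlen]; exact i.2
    have hget : ∀ (j : ℕ) (hj : j < partsYSex.length),
        ((partsYSex[j]).2.2.2, meetCount (toSet rootY) (toSet (partsYSex[j]).2.1)) =
          [(21, 1), (630, 2), (1120, 3)].getD j (0, 0) := by
      intro j hj
      rw [← key, List.getD_eq_getElem _ _ (by simpa using hj), List.getElem_map]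
    refine class_of_cert okYSex (fun _ hg _ => smul_mem_sextets hg) sextets_ncard hroot
      meetCount_equivariant (List.getElem_mem hi) ?_ ?_ ?_ (three_of_root hY)
    · rw [show (partsYSex[i.val]).2.2.2 = _ from (congrArg Prod.fst (hget i hi))]
      revert i; decide
    · rw [show meetCount (toSet rootY) (toSet (partsYSex[i.val]).2.1) = _ from
        (congrArg Prod.snd (hget i hi))]
      revert i; decide
    · intro P hP hv
      obtain ⟨j, hj, rfl⟩ := List.getElem_of_mem hP
      have hji : j = i.val := by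
        have e := congrArg Prod.snd (hget j hj)
        rw [hv] at e
        rw [hlen] at hj
        revert e
        have := i.2
        interval_cases j <;> simp <;> omega
      subst hji; rfl
  simp only [← hmc]
  refine ⟨(hcl 0).1, (hcl 1).1, (hcl 2).1, fun S S' hS hS' he => ?_⟩
  have hrange : ∀ X ∈ sextets, ∃ i : Fin 3, meetCount ({Y} : Fam) X = i.val + 1 := by
    intro X hX
    obtain ⟨g, hg, hgR⟩ := three_of_root hY
    obtain ⟨-, h2, -, -⟩ := partsOK_spec okYSex (fun _ hg _ => smul_mem_sextets hg) sextets_ncard hroot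
    obtain ⟨P, hP, k, -, hkR, hk⟩ := h2 (g⁻¹ • X) (smul_mem_sextets (inv_mem hg) hX)
    have e : meetCount ({Y} : Fam) X = meetCount (toSet rootY) (toSet P.2.1) := by
      rw [← smul_inv_smul g X, ← hgR, meetCount_equivariant g, ← hk]
      conv_lhs => rw [← hkR, meetCount_equivariant k]
    rw [e]
    have : ∀ P ∈ partsYSex, ∃ i : Fin 3, meetCount (toSet rootY) (toSet P.2.1) = i.val + 1 := by
      decide +kernel
    exact this P hP
  obtain ⟨i, hi⟩ := hrange S hS
  obtain ⟨g, hg, h1, h2⟩ := (hcl i).2 S S' hS hS' hi (he ▸ hi)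
  exact ⟨g, hg, Finset.singleton_injective (by rw [← Finset.smul_finset_singleton]; exact h1), h2⟩

end Cfsg.Agent.M24Orbits
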