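import Cfsg.Agent.Golay.CodeFacts

/-! Linear automorphisms of the code preserving octads modulo the all-ones word come from M24. -/

set_option autoImplicit false
open Cfsg Cfsg.Agent.Golay
open scoped Pointwise

namespace Cfsg.Agent.M24Orbits

/-- Octads meeting `t` oddly. -/
def oddMeet (t : Finset GolayPt) : Set (Finset GolayPt) :=
  {o | o ∈ octads ∧ (o ∩ t).card % 2 = 1}

theorem oddMeet_smul {g : Equiv.Perm GolayPt} (hg : g ∈ M24) (t : Finset GolayPt) :
    (oddMeet (g • t)).ncard = (oddMeet t).ncard := by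
  have : oddMeet (g • t) = (fun o => g • o) '' oddMeet t := by
    ext o
    constructor
    · rintro ⟨ho, h⟩
      refine ⟨g⁻¹ • o, ⟨smul_mem_octads (inv_mem hg) ho, ?_⟩, smul_inv_smul g o⟩
      rw [← Finset.card_smul_finset g (g⁻¹ • o ∩ t), Finset.smul_finset_inter, smul_inv_smul]
      exact h
    · rintro ⟨o', ⟨ho, h⟩, rfl⟩
      refine ⟨smul_mem_octads hg ho, ?_⟩
      rw [← Finset.smul_finset_inter, Finset.card_smul_finset]
      exact h
  rw [this, Set.ncard_image_of_injective _ (MulAction.injective g)]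

theorem oddMeet_count (m : ℕ) (hm : m < 2 ^ 24) :
    (oddMeet (bset m)).ncard =
      countB (fun i => pc (encode i) == 8 && pc (encode i &&& m) % 2 == 1) 12 0 := by
  refine ncard_supports_filter (fun n => pc n == 8 && pc (n &&& m) % 2 == 1) _ fun s => ?_
  have e : (s ∩ bset m).card = pc (mask s &&& m) := by
    rw [← card_bset, bset_and, bset_mask]
  simp only [oddMeet, Set.mem_ofPred_eq, e, mem_octads_iff, Bool.and_eq_true, beq_iff_eq, and_assoc]

theorem oddMeet_base :
    countB (fun i => pc (encode i) == 8 && pc (encode i &&& 3) % 2 == 1) 12 0 = 352 ∧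
    countB (fun i => pc (encode i) == 8 && pc (encode i &&& 15) % 2 == 1) 12 0 = 384 := by
  decide +kernel

theorem oddMeet_card (t : Finset GolayPt) :
    (t.card = 2 → (oddMeet t).ncard = 352) ∧ (t.card = 4 → (oddMeet t).ncard = 384) ∧
      (t.card = 0 → (oddMeet t).ncard = 0) := by
  refine ⟨fun h => ?_, fun h => ?_, fun h => ?_⟩
  · obtain ⟨g, hg, e⟩ := exists_mem_M24_finset (bset 3) t (by rw [h, card_bset]; decide +kernel)
      (by rw [card_bset]; decide +kernel)
    rw [← e, oddMeet_smul hg, oddMeet_count 3 (by norm_num), oddMeet_base.1]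
  · obtain ⟨g, hg, e⟩ := exists_mem_M24_finset (bset 15) t (by rw [h, card_bset]; decide +kernel)
      (by rw [card_bset]; decide +kernel)
    rw [← e, oddMeet_smul hg, oddMeet_count 15 (by norm_num), oddMeet_base.2]
  · rw [Finset.card_eq_zero] at h
    subst h
    simp [oddMeet]

/-- The sum of the coordinates in `t`. -/
def fnl (t : Finset GolayPt) (w : GolayPt → ZMod 2) : ZMod 2 := ∑ r ∈ t, w r

/-- Two index sets give the same functional on the code. -/
def Same (s t : Finset GolayPt) : Prop := ∀ w ∈ golayCode, fnl s w = fnl t w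

theorem fnl_wordOf (t : Finset GolayPt) (n : ℕ) :
    fnl t (wordOf n) = ((bset n ∩ t).card : ZMod 2) := by
  rw [fnl, Finset.inter_comm, ← Finset.sum_filter_add_sum_filter_not t (fun r => r ∈ bset n)]
  rw [Finset.filter_mem_eq_inter, Finset.sum_eq_zero (s := t.filter _) (fun r hr => ?_), add_zero,
    Finset.sum_congr rfl (g := fun _ => (1 : ZMod 2)) (fun r hr => ?_), Finset.sum_const, nsmul_one]
  · have := (Finset.mem_inter.1 hr).2
    rw [mem_bset] at this
    simp [wordOf, this]
  · have := (Finset.mem_filter.1 hr).2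
    rw [mem_bset] at this
    simp [wordOf, this]

theorem fnl_symmDiff (s t : Finset GolayPt) (w : GolayPt → ZMod 2) :
    fnl (symmDiff s t) w = fnl s w + fnl t w := by
  have h1 := Finset.sum_union_inter (s₁ := s \ t) (s₂ := t \ s) (f := w)
  rw [show (s \ t) ∩ (t \ s) = ∅ by ext; simp; tauto, Finset.sum_empty, add_zero] at h1
  have hs : fnl s w = ∑ r ∈ s \ t, w r + ∑ r ∈ s ∩ t, w r := by
    rw [fnl, ← Finset.sum_inter_add_sum_sdiff s t, add_comm]
  have ht : fnl t w = ∑ r ∈ t \ s, w r + ∑ r ∈ t ∩ s, w r := by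
    rw [fnl, ← Finset.sum_inter_add_sum_sdiff t s, add_comm]
  rw [hs, ht, Finset.inter_comm t s, fnl, show symmDiff s t = s \ t ∪ t \ s from rfl, h1]
  linear_combination -(CharTwo.add_self_eq_zero (∑ r ∈ s ∩ t, w r))

theorem oddMeet_same {s t : Finset GolayPt} (h : Same s t) : oddMeet s = oddMeet t := by
  ext o
  have key : o ∈ octads → (((o ∩ s).card : ℕ) : ZMod 2) = ((o ∩ t).card : ℕ) := by
    intro ho
    have hw : wordOf (mask o) ∈ golayCode := wordOf_mem (mem_octads_iff.1 ho).1
    have := h _ hw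
    rwa [fnl_wordOf, fnl_wordOf, bset_mask] at this
  constructor <;> rintro ⟨ho, h1⟩ <;> refine ⟨ho, ?_⟩ <;>
    (have k := key ho; rw [ZMod.natCast_eq_natCast_iff'] at k; omega)

theorem even_card_symmDiff {s t : Finset GolayPt} (hs : s.card % 2 = 0) (ht : t.card % 2 = 0) :
    (symmDiff s t).card % 2 = 0 := by
  have := card_symmDiff_add (s := s) (t := t)
  omega

theorem same_small_zero {s : Finset GolayPt} (h4 : s.card ≤ 4) (he : s.card % 2 = 0)
    (h : Same s ∅) : s = ∅ := by
  have hc := congrArg Set.ncard (oddMeet_same h)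
  rw [(oddMeet_card ∅).2.2 Finset.card_empty] at hc
  rcases (show s.card = 0 ∨ s.card = 2 ∨ s.card = 4 by omega) with e | e | e
  · exact Finset.card_eq_zero.1 e
  · rw [(oddMeet_card s).1 e] at hc; omega
  · rw [(oddMeet_card s).2.1 e] at hc; omega

theorem same_two_eq {s t : Finset GolayPt} (hs : s.card = 2) (ht : t.card = 2) (h : Same s t) :
    s = t := by
  have h1 := card_symmDiff_add (s := s) (t := t)
  have h0 : symmDiff s t = ∅ := same_small_zero (by omega) (even_card_symmDiff (by omega) (by omega))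
    (fun w hw => by
      rw [fnl_symmDiff, h w hw, CharTwo.add_self_eq_zero]; simp [fnl])
  exact symmDiff_eq_bot.1 h0

theorem exists_rep (f : ↥golayCode →ₗ[ZMod 2] ZMod 2) :
    ∃ t : Finset GolayPt, t.card ≤ 4 ∧ ∀ c : ↥golayCode, f c = fnl t c := by
  classical
  obtain ⟨F, hF⟩ := f.exists_extend
  obtain ⟨t, ht4, ht⟩ := exists_small_congr (Finset.univ.filter fun r => F (Pi.single r 1) = 1)
  refine ⟨t, ht4, fun c => ?_⟩
  have e : f c = fnl (Finset.univ.filter fun r => F (Pi.single r 1) = 1) c := by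
    have : f c = F c := (LinearMap.congr_fun hF c).symm
    rw [this, fnl, Finset.sum_filter]
    conv_lhs => rw [pi_eq_sum_univ' (c : GolayPt → ZMod 2), map_sum]
    refine Finset.sum_congr rfl fun r _ => ?_
    rw [map_smul, smul_eq_mul]
    rcases (by decide : ∀ z : ZMod 2, z = 0 ∨ z = 1) (F (Pi.single r 1)) with hz | hz
    · rw [hz, mul_zero, if_neg (by decide)]
    · rw [hz, mul_one, if_pos rfl]
  obtain ⟨w, hw, hwe⟩ := ht
  have h0 : fnl (support₂ w) c = 0 := by
    have := self_orthogonal hw c.2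
    rw [fnl, support₂, Finset.sum_filter]
    refine Eq.trans (Finset.sum_congr rfl fun r _ => ?_) this
    rcases (by decide : ∀ z : ZMod 2, z = 0 ∨ z = 1) (w r) with hz | hz <;> simp [hz]
  rw [hwe, fnl_symmDiff] at h0
  rw [e]
  exact CharTwo.add_eq_zero.1 h0

/-- The all-ones word of the code. -/
def oneWord : ↥golayCode := ⟨1, Submodule.subset_span (Or.inr rfl)⟩

theorem octad_word {o : Finset GolayPt} (ho : o ∈ octads) : wordOf (mask o) ∈ golayCode :=
  wordOf_mem (mem_octads_iff.1 ho).1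

theorem preserve_pairs (y : ↥golayCode ≃ₗ[ZMod 2] ↥golayCode) (h1 : y oneWord = oneWord)
    (hoct : ∀ o, ∀ ho : o ∈ octads, ∃ o' ∈ octads,
      ((y ⟨_, octad_word ho⟩ : ↥golayCode) : GolayPt → ZMod 2) = wordOf (mask o') ∨
      ((y ⟨_, octad_word ho⟩ : ↥golayCode) : GolayPt → ZMod 2) = wordOf (mask o') + 1)
    {s : Finset GolayPt} (hs : s.card = 2) :
    ∃ t : Finset GolayPt, t.card = 2 ∧ ∀ c : ↥golayCode, fnl s (y c : GolayPt → ZMod 2) = fnl t c := by
  classical
  let f : ↥golayCode →ₗ[ZMod 2] ZMod 2 :=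
    { toFun := fun c => fnl s (y c : GolayPt → ZMod 2)
      map_add' := fun a b => by simp [fnl, Finset.sum_add_distrib]
      map_smul' := fun a b => by simp [fnl, Finset.mul_sum] }
  obtain ⟨t, ht4, ht⟩ := exists_rep f
  have hs1 : fnl s (1 : GolayPt → ZMod 2) = 0 := by simp [fnl, hs]; rfl
  have heven : t.card % 2 = 0 := by
    have := ht oneWord
    rw [show f oneWord = fnl s (1 : GolayPt → ZMod 2) by show fnl s _ = _; rw [h1]; rfl, hs1] at this
    have h' : ((t.card : ℕ) : ZMod 2) = 0 := by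
      rw [this]; simp [fnl, oneWord]
    have := (ZMod.natCast_eq_zero_iff _ 2).1 h'
    omega
  choose Φ hΦ hΦe using hoct
  have hval : ∀ o (ho : o ∈ octads), (((Φ o ho) ∩ s).card : ZMod 2) = ((o ∩ t).card : ZMod 2) := by
    intro o ho
    have h : fnl s (y ⟨_, octad_word ho⟩ : GolayPt → ZMod 2) = fnl t (wordOf (mask o)) := ht ⟨_, octad_word ho⟩
    rw [fnl_wordOf t, bset_mask] at h
    rw [← h]
    rcases hΦe o ho with e | e <;> rw [e]
    · rw [fnl_wordOf, bset_mask]
    · have : fnl s (wordOf (mask (Φ o ho)) + 1) = fnl s (wordOf (mask (Φ o ho))) + fnl s 1 :=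
        Finset.sum_add_distrib
      rw [this, hs1, add_zero, fnl_wordOf, bset_mask]
  let O := {o : Finset GolayPt // o ∈ octads}
  have hinj : Function.Injective (fun o : O => (⟨Φ o.1 o.2, hΦ o.1 o.2⟩ : O)) := by
    rintro ⟨o, ho⟩ ⟨o', ho'⟩ e
    have e' : Φ o ho = Φ o' ho' := congrArg Subtype.val e
    have key : ∀ (a b : Finset GolayPt), a ∈ octads → b ∈ octads →
        wordOf (mask a) = wordOf (mask b) + 1 → False := by
      intro a b ha hb hab
      have hc := congrArg (fun w => (support₂ w).card) hab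
      rw [support₂_wordOf, bset_mask, card_octad ha] at hc
      have : support₂ (wordOf (mask b) + 1) = bᶜ := by
        ext r
        have hr : r ∈ bset (mask b) ↔ r ∈ b := by rw [bset_mask]
        rw [mem_bset] at hr
        have hsup : ∀ (w : GolayPt → ZMod 2) (j : GolayPt), j ∈ support₂ w ↔ w j ≠ 0 := fun w j => by
          simp [support₂]
        rw [hsup, Finset.mem_compl, ← hr]
        simp only [Pi.add_apply, Pi.one_apply, wordOf]
        cases hb : (mask b).testBit (idx r) <;> simp [hb] <;> decide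
      rw [this, Finset.card_compl, card_octad hb, card_golayPt] at hc
      omega
    have hwo : ∀ {a b : Finset GolayPt}, wordOf (mask a) = wordOf (mask b) → a = b := fun {a b} h => by
      rw [← bset_mask a, ← bset_mask b, ← support₂_wordOf (mask a), h, support₂_wordOf]
    have hone : ∀ v : GolayPt → ZMod 2, v + 1 + 1 = v := fun v => by
      funext r; simp only [Pi.add_apply, Pi.one_apply]; rw [add_assoc, CharTwo.add_self_eq_zero, add_zero]
    have hy : ∀ {u v : ↥golayCode}, (y u : GolayPt → ZMod 2) = (y v : GolayPt → ZMod 2) + 1 →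
        (u : GolayPt → ZMod 2) = v + 1 := by
      intro u v huv
      have : y u = y (v + oneWord) := Subtype.ext (by rw [map_add, h1]; exact huv)
      exact congrArg Subtype.val (y.injective this)
    apply Subtype.ext
    rcases hΦe o ho with a | a <;> rcases hΦe o' ho' with b | b <;> rw [e'] at a
    · exact hwo (congrArg Subtype.val (y.injective (Subtype.ext (a.trans b.symm))))
    · refine (key o o' ho ho' (hy (u := ⟨_, octad_word ho⟩) (v := ⟨_, octad_word ho'⟩) ?_)).elim
      rw [a, b, hone]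
    · refine (key o' o ho' ho (hy (u := ⟨_, octad_word ho'⟩) (v := ⟨_, octad_word ho⟩) ?_)).elim
      rw [a, b, hone]
    · exact hwo (congrArg Subtype.val (y.injective (Subtype.ext (a.trans b.symm))))
  have hcard : (oddMeet t).ncard = 352 := by
    rw [← (oddMeet_card s).1 hs, ← Nat.card_coe_set_eq, ← Nat.card_coe_set_eq]
    have hbij := Finite.injective_iff_bijective.1 hinj
    refine Nat.card_congr (Equiv.ofBijective (fun o => ⟨Φ o.1 o.2.1, hΦ o.1 o.2.1, ?_⟩) ⟨?_, ?_⟩)
    · have := hval o.1 o.2.1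
      rw [ZMod.natCast_eq_natCast_iff'] at this
      have := o.2.2
      omega
    · rintro ⟨o, ho⟩ ⟨o', ho'⟩ e
      exact Subtype.ext (congrArg Subtype.val
        (hinj (a₁ := ⟨o, ho.1⟩) (a₂ := ⟨o', ho'.1⟩) (Subtype.ext (congrArg Subtype.val e :))) :)
    · rintro ⟨u, hu, hodd⟩
      obtain ⟨⟨o, ho⟩, hoe⟩ := hbij.2 ⟨u, hu⟩
      have he : Φ o ho = u := congrArg Subtype.val hoe
      refine ⟨⟨o, ho, ?_⟩, Subtype.ext he⟩
      have := hval o ho
      rw [he, ZMod.natCast_eq_natCast_iff'] at this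
      omega
  refine ⟨t, ?_, ht⟩
  rcases (show t.card = 0 ∨ t.card = 2 ∨ t.card = 4 by omega) with e | e | e
  · rw [(oddMeet_card t).2.2 e] at hcard; omega
  · exact e
  · rw [(oddMeet_card t).2.1 e] at hcard; omega

theorem common_point {A B C : Finset GolayPt} (hA : A.card = 2) (hB : B.card = 2) (hC : C.card = 2)
    (hAB : (A ∩ B).card = 1) (hBC : (B ∩ C).card = 1) (hAC : (A ∩ C).card = 1)
    (hne : symmDiff A B ≠ C) : ∀ r ∈ A ∩ B, r ∈ C := by
  intro r hr
  by_contra hrC
  obtain ⟨a, ha⟩ := Finset.card_eq_one.1 hAC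
  obtain ⟨b, hb⟩ := Finset.card_eq_one.1 hBC
  have haA : a ∈ A ∧ a ∈ C := Finset.mem_inter.1 (ha ▸ Finset.mem_singleton_self a)
  have hbB : b ∈ B ∧ b ∈ C := Finset.mem_inter.1 (hb ▸ Finset.mem_singleton_self b)
  obtain ⟨hrA, hrB⟩ := Finset.mem_inter.1 hr
  have hra : r ≠ a := fun e => hrC (e ▸ haA.2)
  have hrb : r ≠ b := fun e => hrC (e ▸ hbB.2)
  have eA : A = {r, a} := (Finset.eq_of_subset_of_card_le (by simp [Finset.insert_subset_iff, hrA, haA.1])
    (by rw [hA, Finset.card_pair hra])).symm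
  have eB : B = {r, b} := (Finset.eq_of_subset_of_card_le (by simp [Finset.insert_subset_iff, hrB, hbB.1])
    (by rw [hB, Finset.card_pair hrb])).symm
  obtain ⟨u, hu⟩ := Finset.card_eq_one.1 hAB
  have hab : a ≠ b := by
    intro e
    have h1 : r ∈ A ∩ B := hr
    have h2 : a ∈ A ∩ B := Finset.mem_inter.2 ⟨haA.1, e ▸ hbB.1⟩
    rw [hu, Finset.mem_singleton] at h1 h2
    exact hra (h1.trans h2.symm)
  have eC : C = {a, b} := (Finset.eq_of_subset_of_card_le (by simp [Finset.insert_subset_iff, haA.2, hbB.2])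
    (by rw [hC, Finset.card_pair hab])).symm
  apply hne
  rw [eA, eB, eC]
  ext v
  simp only [Finset.mem_symmDiff, Finset.mem_insert, Finset.mem_singleton]
  constructor
  · rintro (⟨h, h'⟩ | ⟨h, h'⟩) <;> tauto
  · rintro (rfl | rfl)
    · exact Or.inl ⟨Or.inr rfl, fun h => h.elim (Ne.symm hra) hab⟩
    · exact Or.inr ⟨Or.inr rfl, fun h => h.elim (Ne.symm hrb) (Ne.symm hab)⟩

theorem code_rigid (x : ↥golayCode ≃ₗ[ZMod 2] ↥golayCode) (h1 : x oneWord = oneWord)
    (hoct : ∀ o, ∀ ho : o ∈ octads, ∃ o' ∈ octads,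
      ((x.symm ⟨_, octad_word ho⟩ : ↥golayCode) : GolayPt → ZMod 2) = wordOf (mask o') ∨
      ((x.symm ⟨_, octad_word ho⟩ : ↥golayCode) : GolayPt → ZMod 2) = wordOf (mask o') + 1) :
    ∃ σ ∈ M24, ∀ c : ↥golayCode,
      ((x c : ↥golayCode) : GolayPt → ZMod 2) = (fun p => (c : GolayPt → ZMod 2) (σ.symm p)) ∨
      ((x c : ↥golayCode) : GolayPt → ZMod 2) =
        (fun p => (c : GolayPt → ZMod 2) (σ.symm p)) + fun _ => (1 : ZMod 2) := by
  classical
  have h1' : x.symm oneWord = oneWord := by rw [LinearEquiv.symm_apply_eq, h1]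
  have hE : ∀ p q : GolayPt, p ≠ q → ∃ t : Finset GolayPt, t.card = 2 ∧
      ∀ c : ↥golayCode, fnl {p, q} (x.symm c : GolayPt → ZMod 2) = fnl t c := fun p q h =>
    preserve_pairs x.symm h1' hoct (Finset.card_pair h)
  choose E hE2 hEf using hE
  have hsym : ∀ p q (h : p ≠ q), E p q h = E q p h.symm := fun p q h =>
    same_two_eq (hE2 _ _ _) (hE2 _ _ _) fun w hw => by
      rw [← hEf p q h ⟨w, hw⟩, ← hEf q p h.symm ⟨w, hw⟩, Finset.pair_comm]
  have hinjE : ∀ p q (h : p ≠ q) r u (h' : r ≠ u), E p q h = E r u h' →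
      ({p, q} : Finset GolayPt) = {r, u} := by
    intro p q h r u h' e
    refine same_two_eq (Finset.card_pair h) (Finset.card_pair h') fun w hw => ?_
    have a := hEf p q h (x ⟨w, hw⟩)
    have b := hEf r u h' (x ⟨w, hw⟩)
    rw [x.symm_apply_apply] at a b
    exact a.trans ((congrArg (fun t => fnl t _) e).trans b.symm)
  have hrel : ∀ p q r (hpq : p ≠ q) (hpr : p ≠ r) (hqr : q ≠ r),
      symmDiff (E p q hpq) (E p r hpr) = E q r hqr ∧ (E p q hpq ∩ E p r hpr).card = 1 := by
    intro p q r hpq hpr hqr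
    have hs : Same (symmDiff (E p q hpq) (E p r hpr)) (E q r hqr) := by
      intro w hw
      have a := hEf p q hpq ⟨w, hw⟩
      have b := hEf p r hpr ⟨w, hw⟩
      have c := hEf q r hqr ⟨w, hw⟩
      rw [fnl_symmDiff]
      simp only at a b c
      rw [← a, ← b, ← c]
      simp only [fnl, Finset.sum_pair hpq, Finset.sum_pair hpr, Finset.sum_pair hqr]
      linear_combination CharTwo.add_self_eq_zero ((x.symm ⟨w, hw⟩ : GolayPt → ZMod 2) p)
    have hn := congrArg Set.ncard (oddMeet_same hs)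
    rw [(oddMeet_card (E q r hqr)).1 (hE2 _ _ _)] at hn
    have hc := card_symmDiff_add (s := E p q hpq) (t := E p r hpr)
    rw [hE2, hE2] at hc
    rcases (show (symmDiff (E p q hpq) (E p r hpr)).card = 0 ∨ (symmDiff (E p q hpq) (E p r hpr)).card = 2 ∨
        (symmDiff (E p q hpq) (E p r hpr)).card = 4 by omega) with e | e | e
    · rw [(oddMeet_card _).2.2 e] at hn; omega
    · exact ⟨same_two_eq e (hE2 _ _ _) hs, by omega⟩
    · rw [(oddMeet_card _).2.1 e] at hn; omega
  have hstar : ∀ p, ∃ a, ∀ q (h : p ≠ q), a ∈ E p q h := by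
    intro p
    obtain ⟨q0, hq0⟩ := exists_ne p
    obtain ⟨r0, hr0⟩ : ∃ r0, r0 ∉ ({p, q0} : Finset GolayPt) := by
      by_contra hc
      push Not at hc
      have := Finset.card_le_card (show (Finset.univ : Finset GolayPt) ⊆ {p, q0} from fun u _ => hc u)
      rw [Finset.card_univ, card_golayPt, Finset.card_pair hq0.symm] at this
      omega
    simp only [Finset.mem_insert, Finset.mem_singleton, not_or] at hr0
    obtain ⟨hr0p, hr0q⟩ := hr0
    obtain ⟨a, ha⟩ := Finset.card_eq_one.1 (hrel p q0 r0 hq0.symm (Ne.symm hr0p) (Ne.symm hr0q)).2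
    have haa : a ∈ E p q0 hq0.symm ∩ E p r0 (Ne.symm hr0p) := ha ▸ Finset.mem_singleton_self a
    refine ⟨a, fun q h => ?_⟩
    by_cases e1 : q = q0
    · subst e1; exact (Finset.mem_inter.1 haa).1
    by_cases e2 : q = r0
    · subst e2; exact (Finset.mem_inter.1 haa).2
    refine common_point (hE2 _ _ _) (hE2 _ _ _) (hE2 p q h)
      (hrel p q0 r0 hq0.symm (Ne.symm hr0p) (Ne.symm hr0q)).2
      (hrel p r0 q (Ne.symm hr0p) h (Ne.symm e2)).2 (hrel p q0 q hq0.symm h (Ne.symm e1)).2 ?_ a haa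
    rw [(hrel p q0 r0 hq0.symm (Ne.symm hr0p) (Ne.symm hr0q)).1]
    intro e
    have := hinjE q0 r0 (Ne.symm hr0q) p q h e
    have hp : p ∈ ({q0, r0} : Finset GolayPt) := this ▸ Finset.mem_insert_self p _
    simp only [Finset.mem_insert, Finset.mem_singleton] at hp
    rcases hp with hp | hp
    · exact hq0 hp.symm
    · exact hr0p hp.symm
  choose σf hσf using hstar
  have hinj : Function.Injective σf := by
    intro p p' e
    by_contra hne
    obtain ⟨r, hr⟩ : ∃ r, r ∉ ({p, p'} : Finset GolayPt) := by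
      by_contra hc
      push Not at hc
      have := Finset.card_le_card (show (Finset.univ : Finset GolayPt) ⊆ {p, p'} from fun u _ => hc u)
      rw [Finset.card_univ, card_golayPt, Finset.card_pair hne] at this
      omega
    simp only [Finset.mem_insert, Finset.mem_singleton, not_or] at hr
    have hd := (hrel p p' r hne (Ne.symm hr.1) (Ne.symm hr.2)).1
    have hm := hσf p' r (Ne.symm hr.2)
    rw [← hd, Finset.mem_symmDiff, ← e] at hm
    rcases hm with ⟨-, h⟩ | ⟨-, h⟩
    · exact h (hσf p r (Ne.symm hr.1))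
    · exact h (hσf p p' hne)
  let σ : Equiv.Perm GolayPt := Equiv.ofBijective σf (Finite.injective_iff_bijective.1 hinj)
  have hpair : ∀ p q (h : p ≠ q), E p q h = {σ p, σ q} := fun p q h =>
    (Finset.eq_of_subset_of_card_le (by
        rw [Finset.insert_subset_iff, Finset.singleton_subset_iff]
        exact ⟨hσf p q h, hsym p q h ▸ hσf q p h.symm⟩)
      (by rw [hE2, Finset.card_pair (fun e => h (σ.injective e))])).symm
  have hformula : ∀ c : ↥golayCode, ∃ k : ZMod 2, ∀ p,
      ((x c : ↥golayCode) : GolayPt → ZMod 2) (σ p) = (c : GolayPt → ZMod 2) p + k := by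
    intro c
    refine ⟨((x c : ↥golayCode) : GolayPt → ZMod 2) (σ none) + (c : GolayPt → ZMod 2) none, fun p => ?_⟩
    by_cases hp : p = none
    · subst hp
      linear_combination -(CharTwo.add_self_eq_zero ((c : GolayPt → ZMod 2) none))
    · have := hEf p none hp (x c)
      rw [hpair, x.symm_apply_apply, fnl, fnl, Finset.sum_pair hp,
        Finset.sum_pair (fun e => hp (σ.injective e))] at this
      linear_combination (-1 : ZMod 2) * this - CharTwo.add_self_eq_zero ((x c : GolayPt → ZMod 2) (σ none))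
  refine ⟨σ, mem_M24_iff_forall.2 ?_, fun c => ?_⟩
  · rintro _ ⟨w, hw, rfl⟩
    obtain ⟨k, hk⟩ := hformula ⟨w, hw⟩
    refine ⟨(x ⟨w, hw⟩ : GolayPt → ZMod 2) + k • 1, add_mem (x ⟨w, hw⟩).2
      (Submodule.smul_mem _ _ oneWord.2), ?_⟩
    ext r
    rw [← Finset.inv_smul_mem_iff, Equiv.Perm.smul_def]
    simp only [support₂, Finset.mem_filter, Finset.mem_univ, true_and, Pi.add_apply, Pi.smul_apply,
      Pi.one_apply, smul_eq_mul, mul_one]
    have := hk (σ.symm r)
    rw [σ.apply_symm_apply] at this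
    simp only [this, add_assoc, CharTwo.add_self_eq_zero, add_zero, Equiv.Perm.coe_inv]
  · obtain ⟨k, hk⟩ := hformula c
    rcases (by decide : ∀ z : ZMod 2, z = 0 ∨ z = 1) k with rfl | rfl
    · left
      funext p
      have := hk (σ.symm p)
      rw [σ.apply_symm_apply, add_zero] at this
      exact this
    · right
      funext p
      have := hk (σ.symm p)
      rw [σ.apply_symm_apply] at this
      exact this

theorem code_mod_one (X : Subgroup (↥golayCode ≃ₗ[ZMod 2] ↥golayCode))
    (h1 : ∀ x ∈ X, ∀ e : ↥golayCode, (e : GolayPt → ZMod 2) = (fun _ => (1 : ZMod 2)) → x e = e)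
    (horb : ∀ x ∈ X, ∀ c : ↥golayCode, ∃ σ ∈ M24,
      ((x c : ↥golayCode) : GolayPt → ZMod 2) = (fun p => (c : GolayPt → ZMod 2) (σ.symm p)) ∨
      ((x c : ↥golayCode) : GolayPt → ZMod 2) =
        (fun p => (c : GolayPt → ZMod 2) (σ.symm p)) + fun _ => (1 : ZMod 2))
    (x : ↥golayCode ≃ₗ[ZMod 2] ↥golayCode) (hx : x ∈ X) :
    ∃ σ ∈ M24, ∀ c : ↥golayCode,
      ((x c : ↥golayCode) : GolayPt → ZMod 2) = (fun p => (c : GolayPt → ZMod 2) (σ.symm p)) ∨
      ((x c : ↥golayCode) : GolayPt → ZMod 2) =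
        (fun p => (c : GolayPt → ZMod 2) (σ.symm p)) + fun _ => (1 : ZMod 2) := by
  refine code_rigid x (h1 x hx oneWord rfl) fun o ho => ?_
  obtain ⟨σ, hσ, h⟩ := horb x⁻¹ (inv_mem hx) ⟨_, octad_word ho⟩
  refine ⟨σ • o, smul_mem_octads hσ ho, ?_⟩
  have he : (fun p => wordOf (mask o) (σ.symm p)) = wordOf (mask (σ • o)) := by
    funext p
    simp only [wordOf, testBit_mask, ← Finset.inv_smul_mem_iff (s := o) (a := σ) (b := p)]
    rfl
  simp only [he] at h
  exact h

end Cfsg.Agent.M24Orbits
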