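import Cfsg.Agent.M24Orbits.Elements

/-! Consequences of the classification of elements of order two and three of M24. -/

set_option autoImplicit false
open Cfsg Cfsg.Agent.Golay
open scoped Pointwise

namespace Cfsg.Agent.M24Orbits

theorem fams_counts {r : ℕ} (hr : r ∈ [r2a, r2b, r3a, r3b]) {h : Equiv.Perm GolayPt} (hh : h ∈ M24) :
    {X | X ∈ sextets ∧ (h * permOf r * h⁻¹) • X = X}.ncard =
        ((partsOctSex.flatMap (partList gensOct)).filter fun x => fixedB r x).length ∧
    {X | X ∈ trios ∧ (h * permOf r * h⁻¹) • X = X}.ncard =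
        ((partsOctTri.flatMap (partList gensOct)).filter fun x => fixedB r x).length ∧
    ∀ w, {s | s ∈ wordsOfWeight (golayCode : Set (GolayPt → ZMod 2)) w ∧ (h * permOf r * h⁻¹) • s = s}.ncard =
        countB (fun i => pc (encode i) == w && mapMask r (encode i) == encode i) 12 0 := by
  have hok := (rep_fix hr).1
  refine ⟨?_, ?_, fun w => ?_⟩
  · rw [ncard_fixed_conj sextets (fun _ hg _ => smul_mem_sextets hg) hh, sextets_fixed hok]
  · rw [ncard_fixed_conj trios (fun _ hg _ => smul_mem_trios hg) hh, trios_fixed hok]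
  · rw [ncard_fixed_conj (wordsOfWeight (golayCode : Set (GolayPt → ZMod 2)) w) (fun g hg X hX => ⟨smul_mem_supports hg hX.1,
      by rw [Finset.card_smul_finset]; exact hX.2⟩) hh, words_fixed_count w hok]

theorem sextet_counts :
    ([r3a, r3b, r2a, r2b].map fun r =>
      ((partsOctSex.flatMap (partList gensOct)).filter fun x => fixedB r x).length) = [16, 7, 91, 51] := by
  decide +kernel

theorem trio_counts :
    ([r3a, r3b, r2a, r2b].map fun r =>
      ((partsOctTri.flatMap (partList gensOct)).filter fun x => fixedB r x).length) = [15, 15, 99, 75] := by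
  decide +kernel

theorem word_counts :
    ([(r3a, 8), (r3a, 12), (r2a, 8), (r2b, 8)].map fun rw =>
      countB (fun i => pc (encode i) == rw.2 && mapMask rw.1 (encode i) == encode i) 12 0) =
        [21, 20, 71, 15] := by
  decide +kernel

theorem count3a :
    ((partsOctSex.flatMap (partList gensOct)).filter fun x => fixedB r3a x).length = 16 ∧
    ((partsOctTri.flatMap (partList gensOct)).filter fun x => fixedB r3a x).length = 15 ∧
    countB (fun i => pc (encode i) == 8 && mapMask r3a (encode i) == encode i) 12 0 = 21 ∧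
    countB (fun i => pc (encode i) == 12 && mapMask r3a (encode i) == encode i) 12 0 = 20 := by
  have h1 := sextet_counts
  have h2 := trio_counts
  have h3 := word_counts
  simp only [List.map_cons, List.map_nil, List.cons.injEq, and_true] at h1 h2 h3
  exact ⟨h1.1, h2.1, h3.1, h3.2.1⟩

theorem count3b :
    ((partsOctSex.flatMap (partList gensOct)).filter fun x => fixedB r3b x).length = 7 ∧
    ((partsOctTri.flatMap (partList gensOct)).filter fun x => fixedB r3b x).length = 15 := by
  have h1 := sextet_counts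
  have h2 := trio_counts
  simp only [List.map_cons, List.map_nil, List.cons.injEq, and_true] at h1 h2
  exact ⟨h1.2.1, h2.2.1⟩

theorem count2a :
    ((partsOctSex.flatMap (partList gensOct)).filter fun x => fixedB r2a x).length = 91 ∧
    ((partsOctTri.flatMap (partList gensOct)).filter fun x => fixedB r2a x).length = 99 ∧
    countB (fun i => pc (encode i) == 8 && mapMask r2a (encode i) == encode i) 12 0 = 71 := by
  have h1 := sextet_counts
  have h2 := trio_counts
  have h3 := word_counts
  simp only [List.map_cons, List.map_nil, List.cons.injEq, and_true] at h1 h2 h3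
  exact ⟨h1.2.2.1, h2.2.2.1, h3.2.2.1⟩

theorem count2b :
    ((partsOctSex.flatMap (partList gensOct)).filter fun x => fixedB r2b x).length = 51 ∧
    ((partsOctTri.flatMap (partList gensOct)).filter fun x => fixedB r2b x).length = 75 ∧
    countB (fun i => pc (encode i) == 8 && mapMask r2b (encode i) == encode i) 12 0 = 15 := by
  have h1 := sextet_counts
  have h2 := trio_counts
  have h3 := word_counts
  simp only [List.map_cons, List.map_nil, List.cons.injEq, and_true] at h1 h2 h3
  exact ⟨h1.2.2.2, h2.2.2.2, h3.2.2.2⟩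

theorem three_conj {g : Equiv.Perm GolayPt} (hg : g ∈ M24) (ho : orderOf g = 3) :
    ((Finset.univ.filter fun p => g p = p).card = 6 → ∃ h ∈ M24, g = h * permOf r3a * h⁻¹) ∧
    ((Finset.univ.filter fun p => g p = p).card = 0 → ∃ h ∈ M24, g = h * permOf r3b * h⁻¹) := by
  rcases three_classes hg ho with ⟨h1, h2⟩ | ⟨h1, h2⟩
  · exact ⟨fun _ => h2, fun e => absurd (h1.symm.trans e) (by norm_num)⟩
  · exact ⟨fun e => absurd (h1.symm.trans e) (by norm_num), fun _ => h2⟩

theorem two_conj {g : Equiv.Perm GolayPt} (hg : g ∈ M24) (ho : orderOf g = 2) :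
    ((Finset.univ.filter fun p => g p = p).card = 8 → ∃ h ∈ M24, g = h * permOf r2a * h⁻¹) ∧
    ((Finset.univ.filter fun p => g p = p).card = 0 → ∃ h ∈ M24, g = h * permOf r2b * h⁻¹) := by
  rcases two_classes hg ho with ⟨h1, h2⟩ | ⟨h1, h2⟩
  · exact ⟨fun _ => h2, fun e => absurd (h1.symm.trans e) (by norm_num)⟩
  · exact ⟨fun e => absurd (h1.symm.trans e) (by norm_num), fun _ => h2⟩

theorem filter_card_zero {g : Equiv.Perm GolayPt} (h : ∀ p, g p ≠ p) :
    (Finset.univ.filter fun p => g p = p).card = 0 := by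
  rw [Finset.card_eq_zero, Finset.filter_eq_empty_iff]
  exact fun p _ => h p

/-! ### Subgroups of order three -/

theorem fixedset_zpowers {H : Subgroup (Equiv.Perm GolayPt)} (x : H) :
    {p : GolayPt | ∀ y ∈ Subgroup.zpowers x, ((y : H) : Equiv.Perm GolayPt) p = p}.ncard =
      (Finset.univ.filter fun p => (x : Equiv.Perm GolayPt) p = p).card := by
  rw [← Set.ncard_coe_finset]
  congr 1
  ext p
  simp only [Set.mem_setOf_eq, Finset.coe_filter, Finset.mem_univ, true_and]
  constructor
  · exact fun h => h x (Subgroup.mem_zpowers x)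
  · intro h y hy
    obtain ⟨n, rfl⟩ := Subgroup.mem_zpowers_iff.1 hy
    rw [SubgroupClass.coe_zpow]
    exact Equiv.Perm.zpow_apply_eq_self_of_apply_eq_self h n

theorem exists_gen {X : Subgroup M24} (hX : Nat.card X = 3) :
    ∃ x : M24, orderOf (x : Equiv.Perm GolayPt) = 3 ∧ X = Subgroup.zpowers x := by
  haveI := Fact.mk Nat.prime_three
  haveI : Finite X := Nat.finite_of_card_ne_zero (by omega)
  obtain ⟨⟨x, hx⟩, ho⟩ := exists_prime_orderOf_dvd_card' (G := X) 3 (by rw [hX])
  rw [Subgroup.orderOf_mk] at ho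
  refine ⟨x, by rw [Subgroup.orderOf_coe, ho], ?_⟩
  refine (Subgroup.eq_of_le_of_card_ge (Subgroup.zpowers_le.2 hx) ?_).symm
  rw [Nat.card_zpowers, ho, hX]

theorem order_three_subgroups :
    (∀ X : Subgroup M24, Nat.card X = 3 →
      {p : GolayPt | ∀ x ∈ X, ((x : M24) : Equiv.Perm GolayPt) p = p}.ncard = 6 ∨
        {p : GolayPt | ∀ x ∈ X, ((x : M24) : Equiv.Perm GolayPt) p = p}.ncard = 0) ∧
    (∃ X : Subgroup M24, Nat.card X = 3 ∧
      {p : GolayPt | ∀ x ∈ X, ((x : M24) : Equiv.Perm GolayPt) p = p}.ncard = 6) ∧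
    (∃ X : Subgroup M24, Nat.card X = 3 ∧
      {p : GolayPt | ∀ x ∈ X, ((x : M24) : Equiv.Perm GolayPt) p = p}.ncard = 0) ∧
    ∀ X Y : Subgroup M24, Nat.card X = 3 → Nat.card Y = 3 →
      {p : GolayPt | ∀ x ∈ X, ((x : M24) : Equiv.Perm GolayPt) p = p}.ncard =
        {p : GolayPt | ∀ x ∈ Y, ((x : M24) : Equiv.Perm GolayPt) p = p}.ncard →
      ∃ k : M24, MulAut.conj k • X = Y := by
  haveI := Fact.mk Nat.prime_three
  have hord : ∀ r ∈ [r3a, r3b], permOf r ^ 3 = 1 ∧ permOf r ≠ 1 := by
    have h : ([r3a, r3b].all fun r => permOK r &&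
        ((List.range 24).all fun i => (List.range 3).foldl (fun j _ => app r j) i == i) &&
        !((List.range 24).all fun i => app r i == i)) = true := by decide +kernel
    intro r hr
    have h' := List.all_eq_true.1 h r hr
    simp only [Bool.and_eq_true, List.all_eq_true, Bool.not_eq_true', List.all_eq_false,
      beq_iff_eq] at h'
    obtain ⟨⟨hok, hp⟩, i, hi, hne⟩ := h'
    refine ⟨Equiv.ext fun q => idx_injective ?_, fun e => hne ?_⟩
    · rw [← foldl_app hok, hp _ (List.mem_range.2 (idx_lt q)), Equiv.Perm.one_apply]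
    · have := idx_permOf hok (pt i)
      rw [e, Equiv.Perm.one_apply, idx_pt (List.mem_range.1 hi)] at this
      exact this.symm
  refine ⟨fun X hX => ?_, ?_, ?_, fun X Y hX hY hXY => ?_⟩
  · obtain ⟨x, hx, rfl⟩ := exists_gen hX
    rw [fixedset_zpowers]
    rcases three_classes x.2 hx with ⟨h, -⟩ | ⟨h, -⟩ <;> simp [h]
  · have ho := orderOf_eq_prime (hord r3a (by simp)).1 (hord r3a (by simp)).2
    refine ⟨Subgroup.zpowers ⟨_, (rep_fix (r := r3a) (by simp)).2.1⟩, ?_, ?_⟩
    · rw [Nat.card_zpowers, Subgroup.orderOf_mk, ho]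
    · rw [fixedset_zpowers, (rep_fix (by simp)).2.2, if_neg (by decide +kernel), if_pos rfl]
  · have ho := orderOf_eq_prime (hord r3b (by simp)).1 (hord r3b (by simp)).2
    refine ⟨Subgroup.zpowers ⟨_, (rep_fix (r := r3b) (by simp)).2.1⟩, ?_, ?_⟩
    · rw [Nat.card_zpowers, Subgroup.orderOf_mk, ho]
    · rw [fixedset_zpowers, (rep_fix (by simp)).2.2, if_neg (by decide +kernel), if_neg (by decide +kernel)]
  · obtain ⟨x, hx, rfl⟩ := exists_gen hX
    obtain ⟨y, hy, rfl⟩ := exists_gen hY
    rw [fixedset_zpowers, fixedset_zpowers] at hXY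
    have hkey : ∃ r, (∃ h ∈ M24, (x : Equiv.Perm GolayPt) = h * permOf r * h⁻¹) ∧
        ∃ h ∈ M24, (y : Equiv.Perm GolayPt) = h * permOf r * h⁻¹ := by
      rcases three_classes x.2 hx with ⟨h, hc⟩ | ⟨h, hc⟩
      · exact ⟨r3a, hc, (three_conj y.2 hy).1 (hXY ▸ h)⟩
      · exact ⟨r3b, hc, (three_conj y.2 hy).2 (hXY ▸ h)⟩
    obtain ⟨r, ⟨h, hh, hxe⟩, k, hk, hye⟩ := hkey
    refine ⟨⟨k, hk⟩ * ⟨h, hh⟩⁻¹, ?_⟩
    rw [Subgroup.pointwise_smul_def]
    erw [MonoidHom.map_zpowers]
    congr 1
    apply Subtype.ext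
    rw [hye]
    show k * h⁻¹ * (x : Equiv.Perm GolayPt) * (k * h⁻¹)⁻¹ = _
    rw [hxe]
    group

/-! ### Commuting elements of order two and three -/

/-- Search through all fixed-point-free involutions of six positions. -/
def pairSearch (six hs : List ℕ) : ℕ → List ℕ → Bool
  | 0, l => hs.any fun h => (List.range 6).all fun i => app h (six.getD i 0) == six.getD (l.getD i 0) 0
  | n + 1, l => (List.range 6).all fun v =>
      l.contains v || v == l.length || (decide (v < l.length) && !(l.getD v 0 == l.length)) ||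
        pairSearch six hs n (l ++ [v])

theorem pairSearch_spec (six hs : List ℕ) (σ : ℕ → ℕ) (hσ : ∀ i < 6, σ i < 6 ∧ σ i ≠ i ∧ σ (σ i) = i) :
    ∀ n, n ≤ 6 → pairSearch six hs n ((List.range (6 - n)).map σ) = true →
      ∃ h ∈ hs, ∀ i < 6, app h (six.getD i 0) = six.getD (σ i) 0 := by
  intro n
  induction n with
  | zero =>
    intro _ h
    simp only [pairSearch, List.any_eq_true, List.all_eq_true, beq_iff_eq] at h
    obtain ⟨a, ha, h⟩ := h
    refine ⟨a, ha, fun i hi => ?_⟩
    rw [h i (List.mem_range.2 hi)]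
    congr 1
    rw [List.getD_eq_getElem?_getD]
    simp [hi]
  | succ n ih =>
    intro hn h
    simp only [pairSearch, List.all_eq_true, Bool.or_eq_true, Bool.and_eq_true,
      decide_eq_true_eq, Bool.not_eq_true', List.length_map, List.length_range, beq_iff_eq,
      beq_eq_false_iff_ne, List.contains_iff_mem] at h
    have hk : 6 - (n + 1) < 6 := by omega
    obtain ⟨h1, h2, h3⟩ := hσ _ hk
    rcases h (σ (6 - (n + 1))) (List.mem_range.2 h1) with ((e | e) | ⟨e1, e2⟩) | e
    · obtain ⟨j, hj, hje⟩ := List.mem_map.1 e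
      have hj' := List.mem_range.1 hj
      have := (hσ j (by omega)).2.2
      rw [hje, h3] at this
      omega
    · exact absurd e h2
    · refine absurd ?_ e2
      rw [List.getD_eq_getElem?_getD]
      rw [List.getElem?_map, List.getElem?_range e1, Option.map_some, Option.getD_some, h3]
    · refine ih (by omega) ?_
      rw [show 6 - n = 6 - (n + 1) + 1 by omega, List.range_succ, List.map_append, List.map_singleton]
      exact e

theorem fpf3a_ok :
    (pairSearch six3a fpf3a 6 [] &&
      fpf3a.all (fun h => isAut h && fix3a.all fun f =>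
        isAut f && !sqB (comp h f) r3a r3a (comp h f))) = true := by decide +kernel

theorem fix3a_ok :
    fixerOK 5460 0 fix3a = true ∧ 5460 < 2 ^ 24 ∧
      bset 5460 = fixPts r3a ∧ (∀ i < 6, six3a.getD i 0 < 24 ∧ six3a.idxOf (six3a.getD i 0) = i) ∧
      ∀ j < 24, (5460 : ℕ).testBit j = true → j ∈ six3a := by decide +kernel

theorem no_commuting {x s : Equiv.Perm GolayPt} (hx : x ∈ M24) (hs : s ∈ M24) (h₃ : orderOf x = 3)
    (h₂ : orderOf s = 2) (hc : Commute x s) (hx6 : (Finset.univ.filter fun p => x p = p).card = 6)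
    (hs0 : ∀ p, s p ≠ p) : False := by
  classical
  obtain ⟨h, hh, rfl⟩ := (three_conj hx h₃).1 hx6
  set t := h⁻¹ * s * h
  have htM : t ∈ M24 := mul_mem (mul_mem (inv_mem hh) hs) hh
  have htc : permOf r3a * t = t * permOf r3a := by
    calc permOf r3a * t = h⁻¹ * (h * permOf r3a * h⁻¹ * s) * h := by simp only [t]; group
      _ = h⁻¹ * (s * (h * permOf r3a * h⁻¹)) * h := by rw [hc.eq]
      _ = t * permOf r3a := by simp only [t]; group
  have htt : ∀ p, t (t p) = p := by
    intro p
    have : t * t = 1 := by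
      calc t * t = h⁻¹ * s ^ 2 * h := by simp only [t, pow_two]; group
        _ = 1 := by rw [← h₂, pow_orderOf_eq_one]; group
    rw [← Equiv.Perm.mul_apply, this, Equiv.Perm.one_apply]
  have ht0 : ∀ p, t p ≠ p := fun p e => hs0 (h p) (by
    have := congrArg h e
    simpa [t] using this)
  obtain ⟨hF, hlt, hbs, hix, hmem⟩ := fix3a_ok
  have hokr := (rep_fix (r := r3a) (by simp)).1
  have hset : ∀ p ∈ bset 5460, t p ∈ bset 5460 := by
    intro p hp
    rw [hbs, ← filter_fix hokr, Finset.mem_filter] at hp ⊢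
    refine ⟨Finset.mem_univ _, ?_⟩
    rw [← Equiv.Perm.mul_apply, htc, Equiv.Perm.mul_apply, hp.2]
  have hval : ∀ p ∈ bset 5460, idx p ∈ six3a := fun p hp =>
    hmem _ (idx_lt p) (mem_bset.1 hp)
  have hin : ∀ i < 6, pt (six3a.getD i 0) ∈ bset 5460 := by
    have : ((List.range 6).all fun i => (5460 : ℕ).testBit (six3a.getD i 0)) = true := by
      decide +kernel
    intro i hi
    rw [mem_bset, idx_pt (hix i hi).1]
    exact List.all_eq_true.1 this i (List.mem_range.2 hi)
  let σ : ℕ → ℕ := fun i => six3a.idxOf (idx (t (pt (six3a.getD i 0))))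
  have hlen : six3a.length = 6 := by decide +kernel
  have hget : ∀ i < 6, σ i < 6 ∧ six3a.getD (σ i) 0 = idx (t (pt (six3a.getD i 0))) := by
    intro i hi
    have hm := hval _ (hset _ (hin i hi))
    have hlt' := List.idxOf_lt_length_of_mem hm
    refine ⟨hlen ▸ hlt', ?_⟩
    rw [List.getD_eq_getElem?_getD, List.getElem?_eq_getElem hlt', Option.getD_some]
    exact List.getElem_idxOf hlt'
  have hσ : ∀ i < 6, σ i < 6 ∧ σ i ≠ i ∧ σ (σ i) = i := by
    intro i hi
    obtain ⟨h1, h2⟩ := hget i hi
    refine ⟨h1, fun e => ?_, ?_⟩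
    · rw [e] at h2
      have := congrArg pt h2
      rw [pt_idx] at this
      exact ht0 _ this.symm
    · show six3a.idxOf (idx (t (pt (six3a.getD (σ i) 0)))) = i
      rw [h2, pt_idx, htt, idx_pt (hix i hi).1]
      exact (hix i hi).2
  have hok := fpf3a_ok
  simp only [Bool.and_eq_true, List.all_eq_true, Bool.not_eq_true'] at hok
  obtain ⟨a, ha, happ⟩ := pairSearch_spec six3a fpf3a σ hσ 6 le_rfl (by simpa using hok.1)
  obtain ⟨haut, hno⟩ := hok.2 a ha
  have haok := permOK_of_isAut haut
  obtain ⟨f, hf, hfok, hfe⟩ := fixerOK_spec hF hlt (g := (permOf a)⁻¹ * t)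
    (mul_mem (inv_mem (permOf_mem_M24 haut)) htM) (by
      intro p hp
      obtain ⟨i, hi, hip⟩ : ∃ i < 6, six3a.getD i 0 = idx p := by
        have hm := hval p hp
        have hl' := List.idxOf_lt_length_of_mem hm
        refine ⟨six3a.idxOf (idx p), hlen ▸ hl', ?_⟩
        rw [List.getD_eq_getElem?_getD, List.getElem?_eq_getElem hl', Option.getD_some]
        exact List.getElem_idxOf hl'
      have hp' : pt (six3a.getD i 0) = p := by rw [hip, pt_idx]
      rw [Equiv.Perm.mul_apply, Equiv.Perm.inv_eq_iff_eq]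
      apply idx_injective
      rw [idx_permOf haok, ← hip, happ i hi, (hget i hi).2, hp'])
  have hb := (hno f hf).2
  have hcomp := permOf_comp haok hfok
  have hne := mt (sqB_iff hcomp.1 hokr hokr hcomp.1).2 (by simp [hb])
  apply hne
  rw [hcomp.2, hfe, mul_inv_cancel_left, htc]

theorem commuting_three_two {x s : Equiv.Perm GolayPt} (hx : x ∈ M24) (hs : s ∈ M24)
    (h₃ : orderOf x = 3) (h₂ : orderOf s = 2) (hc : Commute x s) :
    ((Finset.univ.filter fun p => x p = p).card = 6 ∧ (Finset.univ.filter fun p => s p = p).card = 8) ∨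
    ((Finset.univ.filter fun p => x p = p).card = 0 ∧ (Finset.univ.filter fun p => s p = p).card = 0) := by
  classical
  haveI := Fact.mk Nat.prime_three
  rcases three_classes hx h₃ with ⟨h6, -⟩ | ⟨h0, -⟩ <;> rcases two_classes hs h₂ with ⟨g8, -⟩ | ⟨g0, -⟩
  · exact Or.inl ⟨h6, g8⟩
  · refine (no_commuting hx hs h₃ h₂ hc h6 fun p e => ?_).elim
    rw [Finset.card_eq_zero, Finset.filter_eq_empty_iff] at g0
    exact g0 (Finset.mem_univ p) e
  · exfalso
    set A := Finset.univ.filter fun p => s p = p with hA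
    have hinv : ∀ p, x p ∈ A ↔ p ∈ A := by
      intro p
      simp only [hA, Finset.mem_filter, Finset.mem_univ, true_and]
      rw [← Equiv.Perm.mul_apply, ← hc.eq, Equiv.Perm.mul_apply]
      exact x.injective.eq_iff
    let σ := x.subtypePerm hinv
    have hσ : σ ^ 3 ^ 1 = 1 := by
      have hx3 : x ^ 3 = 1 := by rw [← h₃]; exact pow_orderOf_eq_one x
      ext p
      simp [σ, Equiv.Perm.subtypePerm_pow, hx3]
    obtain ⟨a, ha⟩ := Equiv.Perm.exists_fixed_point_of_prime (p := 3) (n := 1)
      (by rw [Fintype.card_coe, g8]; norm_num) hσ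
    rw [Finset.card_eq_zero, Finset.filter_eq_empty_iff] at h0
    exact h0 (Finset.mem_univ (a : GolayPt)) (by simpa [σ] using congrArg Subtype.val ha)
  · exact Or.inr ⟨h0, g0⟩

end Cfsg.Agent.M24Orbits
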