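import Cfsg.Agent.M24Orbits.Elements2

/-! The normaliser of a subgroup of order seven of M24. -/

set_option autoImplicit false
open Cfsg Cfsg.Agent.Golay
open scoped Pointwise

namespace Cfsg.Agent.M24Orbits

/-- Powers of the representative of order seven. -/
def pow7 : ℕ → ℕ
  | 0 => idCode
  | n + 1 => comp r7 (pow7 n)

theorem r7_ok : isAut r7 = true ∧ ((List.range 24).all fun i =>
    (List.range 7).foldl (fun j _ => app r7 j) i == i) = true ∧ app r7 0 = 8 := by decide +kernel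

theorem pow7_spec : ∀ n, permOK (pow7 n) = true ∧ permOf (pow7 n) = permOf r7 ^ n
  | 0 => ⟨idCode_ok, by rw [pow7, permOf_idCode, pow_zero]⟩
  | n + 1 => by
    obtain ⟨h1, h2⟩ := pow7_spec n
    obtain ⟨h3, h4⟩ := permOf_comp (permOK_of_isAut r7_ok.1) h1
    exact ⟨h3, by rw [pow7, h4, h2, pow_succ']⟩

/-- Images of the six certificate points. -/
def ys7 (j a f : ℕ) : List ℕ :=
  let p := app (pow7 j)
  [a, p a, p (p a), p (p (p a)), p (p (p (p a))), f]

/-- The possible images of the six certificate points are accounted for. -/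
def caseB (j a k : ℕ) : Bool :=
  let f := fixed7.getD k 0
  let e := cand7.getD (((j - 1) * 24 + a) * 3 + k) (0, 0)
  (ys7 j a f).any (fun x => decide (1 < (ys7 j a f).count x)) ||
  (e.1 == 1 && inC e.2 && pc e.2 == 8 && (ys7 j a f).all fun x => e.2.testBit x) ||
  (isAut e.2 && ((List.range 6).all fun i => app e.2 (six7.getD i 0) == (ys7 j a f).getD i 0) &&
    fix7.all fun c => !sqB (comp e.2 c) r7 (pow7 j) (comp e.2 c) || norm7.contains (j, comp e.2 c))

theorem cases7_ok : ((List.range 6).all fun j => (List.range 24).all fun a =>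
    (List.range 3).all fun k => caseB (j + 1) a k) = true := by decide +kernel

theorem fix7_ok :
    fixerOK (2 ^ 0 + 2 ^ 8 + 2 ^ 5 + 2 ^ 9 + 2 ^ 21 + 2 ^ 12) 0 fix7 = true ∧
      six7 = [0, 8, 5, 9, 21, 12] ∧ app r7 8 = 5 ∧ app r7 5 = 9 ∧ app r7 9 = 21 ∧ app r7 12 = 12 ∧
      (∀ j < 6, ∀ i < 24, app (pow7 (j + 1)) i = i → i ∈ fixed7) := by decide +kernel

theorem norm7_ok :
    ((norm7.all fun e => decide (e.1 < 7) && isAut e.2 && decide (e.2 < 2 ^ 120) &&
        sqB e.2 r7 (pow7 e.1) e.2 && actL e.2 trio7 == actL idCode trio7) &&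
      trioB trio7 && norm7.length == 126 && (norm7.filter fun e => e.1 == 1).length == 42 &&
      decide (norm7.map Prod.snd).Nodup &&
      norm7.contains (1, noncomm7.1) && norm7.contains (1, noncomm7.2) &&
      !sqB noncomm7.1 noncomm7.2 noncomm7.2 noncomm7.1) = true := by decide +kernel

/-- Normalisers of the representative. -/
def InN (σ : Equiv.Perm GolayPt) (j : ℕ) : Prop :=
  σ ∈ M24 ∧ σ * permOf r7 = permOf r7 ^ j * σ

theorem r7_orderOf : orderOf (permOf r7) = 7 := by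
  haveI : Fact (Nat.Prime 7) := ⟨by norm_num⟩
  obtain ⟨h1, h2, h3⟩ := r7_ok
  have hok := permOK_of_isAut h1
  simp only [List.all_eq_true, beq_iff_eq] at h2
  refine orderOf_eq_prime (Equiv.ext fun q => idx_injective ?_) fun e => ?_
  · rw [← foldl_app hok, h2 _ (List.mem_range.2 (idx_lt q)), Equiv.Perm.one_apply]
  · have := idx_permOf hok (pt 0)
    rw [e, Equiv.Perm.one_apply, idx_pt (by norm_num), h3] at this
    omega

theorem inN_list {σ : Equiv.Perm GolayPt} {j : ℕ} (hj : j < 7) (h : InN σ j) :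
    ∃ c, (j, c) ∈ norm7 ∧ permOf c = σ := by
  classical
  obtain ⟨hσ, he⟩ := h
  obtain ⟨hr7, -, hr0⟩ := r7_ok
  obtain ⟨hF, hsix, h8, h5, h9, h12, hfixed⟩ := fix7_ok
  have hok := permOK_of_isAut hr7
  obtain ⟨hpok, hpe⟩ := pow7_spec j
  have hj0 : j ≠ 0 := by
    intro e
    rw [e, pow_zero, one_mul] at he
    have : permOf r7 = 1 := mul_eq_left.1 he
    have h := r7_orderOf
    rw [this, orderOf_one] at h
    omega
  have hstep : ∀ x < 24, idx (σ (pt (app r7 x))) = app (pow7 j) (idx (σ (pt x))) := by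
    intro x hx
    have h : permOf r7 (pt x) = pt (app r7 x) := by
      rw [← pt_idx (permOf r7 (pt x)), idx_permOf hok, idx_pt hx]
    rw [← h, ← Equiv.Perm.mul_apply, he, Equiv.Perm.mul_apply, ← hpe, idx_permOf hpok]
  set a := idx (σ (pt 0)) with ha
  set f := idx (σ (pt 12)) with hf
  have hf7 : f ∈ fixed7 := by
    refine hfixed (j - 1) (by omega) f (idx_lt _) ?_
    rw [Nat.sub_add_cancel (by omega : 1 ≤ j)]
    have := hstep 12 (by norm_num)
    rw [h12] at this
    exact this.symm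
  have hk : fixed7.idxOf f < 3 := by
    have := List.idxOf_lt_length_of_mem hf7
    have h3 : fixed7.length = 3 := by decide +kernel
    omega
  have hkf : fixed7.getD (fixed7.idxOf f) 0 = f := by
    rw [List.getD_eq_getElem _ _ (List.idxOf_lt_length_of_mem hf7)]
    exact List.getElem_idxOf _
  have hc : caseB j a (fixed7.idxOf f) = true := by
    have h := cases7_ok
    simp only [List.all_eq_true] at h
    have := h (j - 1) (List.mem_range.2 (by omega)) a (List.mem_range.2 (idx_lt _)) _ (List.mem_range.2 hk)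
    rwa [Nat.sub_add_cancel (by omega : 1 ≤ j)] at this
  have e1 : idx (σ (pt 8)) = app (pow7 j) a := by rw [← hr0, hstep 0 (by norm_num)]
  have e2 : idx (σ (pt 5)) = app (pow7 j) (app (pow7 j) a) := by rw [← h8, hstep 8 (by norm_num), e1]
  have e3 : idx (σ (pt 9)) = app (pow7 j) (app (pow7 j) (app (pow7 j) a)) := by
    rw [← h5, hstep 5 (by norm_num), e2]
  have e4 : idx (σ (pt 21)) = app (pow7 j) (app (pow7 j) (app (pow7 j) (app (pow7 j) a))) := by
    rw [← h9, hstep 9 (by norm_num), e3]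
  have himg : ∀ i < 6, idx (σ (pt (six7.getD i 0))) = (ys7 j a f).getD i 0 ∧ six7.getD i 0 < 24 := by
    intro i hi
    interval_cases i <;> simp [hsix, ys7, e1, e2, e3, e4, ha, hf]
  have hinj : ∀ i < 6, ∀ k < 6, (ys7 j a f).getD i 0 = (ys7 j a f).getD k 0 → i = k := by
    intro i hi k hk e
    rw [← (himg i hi).1, ← (himg k hk).1] at e
    have e' := congrArg idx (σ.injective (idx_injective e))
    rw [idx_pt (himg i hi).2, idx_pt (himg k hk).2] at e'
    have hnd : ∀ i < 6, ∀ k < 6, six7.getD i 0 = six7.getD k 0 → i = k := by decide +kernel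
    exact hnd i hi k hk e'
  set E : ℕ := 2 ^ 0 + 2 ^ 8 + 2 ^ 5 + 2 ^ 9 + 2 ^ 21 + 2 ^ 12 with hE
  have hsub : ∀ p ∈ bset E, ∃ i < 6, six7.getD i 0 = idx p := by
    have : ∀ t < 24, (2 ^ 0 + 2 ^ 8 + 2 ^ 5 + 2 ^ 9 + 2 ^ 21 + 2 ^ 12 : ℕ).testBit t = true →
        ∃ i < 6, six7.getD i 0 = t := by decide +kernel
    exact fun p hpm => this _ (idx_lt p) (mem_bset.1 hpm)
  simp only [caseB, hkf, Bool.or_eq_true, List.any_eq_true, decide_eq_true_eq, Bool.and_eq_true,
    beq_iff_eq, List.all_eq_true, Bool.not_eq_true', List.contains_iff_mem] at hc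
  set O := (cand7.getD (((j - 1) * 24 + a) * 3 + fixed7.idxOf f) (0, 0)).2
  rcases hc with (⟨x, -, hcount⟩ | ⟨⟨⟨-, hO⟩, hO8⟩, hall⟩) | ⟨⟨haut, hmap⟩, hfx⟩
  · exfalso
    have hnd : (ys7 j a f).Nodup := by
      rw [List.nodup_iff_injective_get]
      intro i k e
      have hlen : (ys7 j a f).length = 6 := rfl
      refine Fin.ext (hinj i (hlen ▸ i.2) k (hlen ▸ k.2) ?_)
      rw [List.getD_eq_getElem _ _ i.2, List.getD_eq_getElem _ _ k.2]
      exact e
    have := List.nodup_iff_count_le_one.1 hnd x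
    omega
  · exfalso
    have ho : bset O ∈ octads := octad_of_mask (by simp [hO, hO8])
    have hsubO : bset E ⊆ σ⁻¹ • bset O := by
      intro p hpm
      obtain ⟨i, hi, e⟩ := hsub p hpm
      rw [Finset.mem_inv_smul_finset_iff, Equiv.Perm.smul_def, mem_bset]
      refine hall _ ?_
      have h6 := (himg i hi).1
      rw [e, pt_idx] at h6
      rw [h6, List.getD_eq_getElem _ _ (show i < (ys7 j a f).length from hi)]
      exact List.getElem_mem _
    obtain ⟨i, hi, h8', hie⟩ := octad_supset (smul_mem_octads (inv_mem hσ) ho) hsubO (by rw [hE]; norm_num)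
    simp only [fixerOK, Bool.and_eq_true, Bool.or_eq_true, beq_iff_eq] at hF
    rcases hF.2 with ⟨⟨⟨hl16, -⟩, -⟩, -⟩ | ⟨-, hno⟩
    · have : fix7.length = 3 := by decide +kernel
      omega
    · have := allB_spec _ 12 0 hno i (Nat.zero_le _) (by simpa using hi)
      simp [h8'] at this
      exact this (by simpa [hE] using hie)
  · obtain ⟨c, hcm, hcok, hce⟩ := fixerOK_spec hF (by norm_num) (g := (permOf O)⁻¹ * σ)
      (mul_mem (inv_mem (permOf_mem_M24 haut)) hσ) (by
        intro p hpm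
        obtain ⟨i, hi, e⟩ := hsub p hpm
        rw [Equiv.Perm.mul_apply, Equiv.Perm.inv_eq_iff_eq]
        apply idx_injective
        rw [idx_permOf (permOK_of_isAut haut), ← e, hmap i (List.mem_range.2 hi), ← (himg i hi).1, e, pt_idx])
    obtain ⟨hcok', hcomp⟩ := permOf_comp (permOK_of_isAut haut) hcok
    rw [hce, mul_inv_cancel_left] at hcomp
    rcases hfx c hcm with hs | hmem
    · have := mt (sqB_iff hcok' hok hpok hcok').2 (by simp [hs])
      rw [hcomp, hpe] at this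
      exact absurd he this
    · exact ⟨_, hmem, hcomp⟩

theorem norm7_mem {j c : ℕ} (h : (j, c) ∈ norm7) :
    j < 7 ∧ InN (permOf c) j ∧ c < 2 ^ 120 ∧ permOK c = true ∧
      permOf c • toSet trio7 = toSet trio7 := by
  have hn := norm7_ok
  simp only [Bool.and_eq_true, List.all_eq_true, decide_eq_true_eq, beq_iff_eq] at hn
  obtain ⟨⟨⟨⟨hj, ha⟩, hlt⟩, hs⟩, ht⟩ := hn.1.1.1.1.1.1.1 _ h
  have hok := permOK_of_isAut ha
  obtain ⟨hpok, hpe⟩ := pow7_spec j
  refine ⟨hj, ⟨permOf_mem_M24 ha, ?_⟩, hlt, hok, ?_⟩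
  · rw [← hpe]; exact (sqB_iff hok (permOK_of_isAut r7_ok.1) hpok hok).1 hs
  · rw [← toSet_actL hok, ht, toSet_actL idCode_ok, permOf_idCode, one_smul]

theorem inN_counts :
    Nat.card {σ : Equiv.Perm GolayPt // ∃ j < 7, InN σ j} = 126 ∧
    Nat.card {σ : Equiv.Perm GolayPt // InN σ 1} = 42 := by
  classical
  have hn := norm7_ok
  simp only [Bool.and_eq_true, decide_eq_true_eq, beq_iff_eq] at hn
  obtain ⟨⟨⟨⟨⟨⟨⟨-, -⟩, hlen⟩, h42⟩, hnd⟩, -⟩, -⟩, -⟩ := hn
  have hinj : ∀ x ∈ norm7, ∀ y ∈ norm7, permOf x.2 = permOf y.2 → x = y := by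
    intro x hx y hy e
    obtain ⟨-, -, h1, h2, -⟩ := norm7_mem hx
    obtain ⟨-, -, h3, h4, -⟩ := norm7_mem hy
    exact List.inj_on_of_nodup_map hnd hx hy (code_ext h1 h3 h2 h4 e)
  have hnd' : norm7.Nodup := List.Nodup.of_map _ hnd
  constructor
  · rw [← hlen, ← List.length_map (as := norm7) (fun e => permOf e.2),
      ← List.toFinset_card_of_nodup (List.Nodup.map_on hinj hnd'), ← Set.ncard_coe_finset]
    rw [← Nat.card_coe_set_eq]
    refine Nat.card_congr (Equiv.subtypeEquivRight fun σ => ?_)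
    simp only [Finset.mem_coe, List.mem_toFinset, List.mem_map]
    constructor
    · rintro ⟨j, hj, h⟩
      obtain ⟨c, hc, e⟩ := inN_list hj h
      exact ⟨(j, c), hc, e⟩
    · rintro ⟨⟨j, c⟩, hc, rfl⟩
      exact ⟨j, (norm7_mem hc).1, (norm7_mem hc).2.1⟩
  · rw [← h42, ← List.length_map (as := norm7.filter fun e => e.1 == 1) (fun e => permOf e.2),
      ← List.toFinset_card_of_nodup (List.Nodup.map_on (fun x hx y hy e => hinj x (List.mem_filter.1 hx).1 y
        (List.mem_filter.1 hy).1 e) (hnd'.filter _)), ← Set.ncard_coe_finset, ← Nat.card_coe_set_eq]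
    refine Nat.card_congr (Equiv.subtypeEquivRight fun σ => ?_)
    simp only [Finset.mem_coe, List.mem_toFinset, List.mem_map, List.mem_filter, beq_iff_eq]
    constructor
    · intro h
      obtain ⟨c, hc, e⟩ := inN_list (by norm_num) h
      exact ⟨(1, c), ⟨hc, rfl⟩, e⟩
    · rintro ⟨⟨j, c⟩, ⟨hc, hj⟩, rfl⟩
      simp only at hj
      subst hj
      exact (norm7_mem hc).2.1

theorem sylow_seven (S : Subgroup M24) (hS : Nat.card S = 7) :
    Nat.card ↥(Subgroup.normalizer (S : Set M24)) = 126 ∧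
    Nat.card ↥(Subgroup.centralizer (S : Set M24)) = 42 ∧
    (∃ x ∈ Subgroup.centralizer (S : Set M24), ∃ y ∈ Subgroup.centralizer (S : Set M24), x * y ≠ y * x) ∧
    ∃ T ∈ trios, ∀ n ∈ Subgroup.normalizer (S : Set M24),
      ((n : M24) : Equiv.Perm GolayPt) • T = T := by
  classical
  haveI : Fact (Nat.Prime 7) := ⟨by norm_num⟩
  haveI : Finite S := Nat.finite_of_card_ne_zero (by omega)
  set R : M24 := ⟨permOf r7, permOf_mem_M24 r7_ok.1⟩ with hR
  have hRo : orderOf R = 7 := by rw [hR, Subgroup.orderOf_mk, r7_orderOf]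
  obtain ⟨k, hk⟩ : ∃ k : M24, S = Subgroup.zpowers (k * R * k⁻¹) := by
    obtain ⟨⟨g, hg⟩, ho⟩ := exists_prime_orderOf_dvd_card' (G := S) 7 (by rw [hS])
    rw [Subgroup.orderOf_mk] at ho
    obtain ⟨h, hh, hmem⟩ := conj_into_sylow (p := 7) (k := 1) (P := Subgroup.zpowers (permOf r7))
      (by
        rw [show (244823040 : ℕ) = 7 * 34974720 by norm_num, Nat.factorization_mul (by norm_num) (by norm_num),
          Finsupp.add_apply, Nat.Prime.factorization (by norm_num), Finsupp.single_eq_same,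
          Nat.factorization_eq_zero_of_not_dvd (by norm_num)])
      (Subgroup.zpowers_le.2 (permOf_mem_M24 r7_ok.1))
      (by rw [Nat.card_zpowers, r7_orderOf, pow_one]) g.2 (by rw [Subgroup.orderOf_coe, ho])
    obtain ⟨i, hi⟩ := Subgroup.mem_zpowers_iff.1 hmem
    refine ⟨⟨h, hh⟩, ?_⟩
    have hSg : Subgroup.zpowers g = S := by
      refine Subgroup.eq_of_le_of_card_ge (Subgroup.zpowers_le.2 hg) ?_
      rw [Nat.card_zpowers, ho, hS]
    rw [← hSg]
    have hco : orderOf ((⟨h, hh⟩ : M24) * R * ⟨h, hh⟩⁻¹) = 7 := by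
      rw [← MulAut.conj_apply, MulEquiv.orderOf_eq, hRo]
    haveI : Finite (Subgroup.zpowers ((⟨h, hh⟩ : M24) * R * ⟨h, hh⟩⁻¹)) :=
      Nat.finite_of_card_ne_zero (by rw [Nat.card_zpowers, hco]; omega)
    refine Subgroup.eq_of_le_of_card_ge (Subgroup.zpowers_le.2 (Subgroup.mem_zpowers_iff.2 ⟨i, ?_⟩)) ?_
    · apply Subtype.ext
      rw [conj_zpow]
      show h * (permOf r7) ^ i * h⁻¹ = g.1
      rw [hi]; group
    · rw [Nat.card_zpowers, Nat.card_zpowers, hco, ho]
  subst hk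
  set x := k * R * k⁻¹ with hx
  have hxo : orderOf x = 7 := by rw [hx, ← MulAut.conj_apply, MulEquiv.orderOf_eq, hRo]
  have hN : ∀ n : M24, n ∈ Subgroup.normalizer (Subgroup.zpowers x : Set M24) ↔
      ∃ j < 7, InN ((k⁻¹ * n * k : M24) : Equiv.Perm GolayPt) j := by
    intro n
    have hequiv : ∀ j : ℕ, n * x * n⁻¹ = x ^ j ↔
        InN ((k⁻¹ * n * k : M24) : Equiv.Perm GolayPt) j := by
      intro j
      have e1 : n * x * n⁻¹ = x ^ j ↔ k⁻¹ * n * k * R = R ^ j * (k⁻¹ * n * k) := by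
        rw [hx, conj_pow]
        constructor
        · intro e
          calc k⁻¹ * n * k * R = k⁻¹ * (n * (k * R * k⁻¹) * n⁻¹) * n * k := by group
            _ = k⁻¹ * (k * R ^ j * k⁻¹) * n * k := by rw [e]
            _ = _ := by group
        · intro e
          calc n * (k * R * k⁻¹) * n⁻¹ = k * (k⁻¹ * n * k * R) * k⁻¹ * n⁻¹ := by group
            _ = k * (R ^ j * (k⁻¹ * n * k)) * k⁻¹ * n⁻¹ := by rw [e]
            _ = _ := by group
      rw [e1, ← Subtype.coe_inj]
      constructor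
      · exact fun e => ⟨(k⁻¹ * n * k).2, by simpa [hR] using e⟩
      · rintro ⟨-, e⟩; simpa [hR] using e
    simp_rw [← hequiv]
    constructor
    · intro hn
      have hm : n * x * n⁻¹ ∈ Subgroup.zpowers x :=
        (Subgroup.mem_normalizer_iff.1 hn x).1 (Subgroup.mem_zpowers x)
      rw [mem_zpowers_iff_mem_range_orderOf] at hm
      obtain ⟨j, hj, e⟩ := Finset.mem_image.1 hm
      exact ⟨j, hxo ▸ Finset.mem_range.1 hj, e.symm⟩
    · rintro ⟨j, -, e⟩
      rw [Subgroup.mem_normalizer_iff_map_conj_eq]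
      refine Subgroup.eq_of_le_of_card_ge ?_ ?_
      · rw [MonoidHom.map_zpowers, Subgroup.zpowers_le]
        exact ⟨j, by simpa using e.symm⟩
      · rw [Subgroup.card_map_of_injective (MulAut.conj n).injective]
  have hC : ∀ n : M24, n ∈ Subgroup.centralizer (Subgroup.zpowers x : Set M24) ↔
      InN ((k⁻¹ * n * k : M24) : Equiv.Perm GolayPt) 1 := by
    intro n
    constructor
    · intro hn
      refine ⟨(k⁻¹ * n * k).2, ?_⟩
      have e := Subgroup.mem_centralizer_iff.1 hn x (Subgroup.mem_zpowers x)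
      have e' : k⁻¹ * n * k * R = R ^ 1 * (k⁻¹ * n * k) := by
        calc k⁻¹ * n * k * R = k⁻¹ * (n * x) * k := by rw [hx]; group
          _ = k⁻¹ * (x * n) * k := by rw [e]
          _ = _ := by rw [hx, pow_one]; group
      simpa [hR] using congrArg Subtype.val e'
    · rintro ⟨-, e⟩
      have e' : k⁻¹ * n * k * R = R * (k⁻¹ * n * k) := Subtype.ext (by simpa [hR] using e)
      have hc : Commute n x := by
        show n * x = x * n
        calc n * x = k * (k⁻¹ * n * k * R) * k⁻¹ := by rw [hx]; group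
          _ = k * (R * (k⁻¹ * n * k)) * k⁻¹ := by rw [e']
          _ = _ := by rw [hx]; group
      rw [Subgroup.mem_centralizer_iff]
      intro y hy
      obtain ⟨i, rfl⟩ := hy
      exact (hc.zpow_right i).eq.symm
  have hcard : ∀ (P : Equiv.Perm GolayPt → Prop), (∀ σ, P σ → σ ∈ M24) →
      Nat.card {n : M24 // P ((k⁻¹ * n * k : M24) : Equiv.Perm GolayPt)} =
        Nat.card {σ : Equiv.Perm GolayPt // P σ} := fun P hP =>
    Nat.card_congr
      { toFun := fun n => ⟨_, n.2⟩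
        invFun := fun σ => ⟨k * ⟨σ.1, hP _ σ.2⟩ * k⁻¹, by
          rw [show k⁻¹ * (k * ⟨σ.1, hP _ σ.2⟩ * k⁻¹) * k = ⟨σ.1, hP _ σ.2⟩ by group]; exact σ.2⟩
        left_inv := fun n => Subtype.ext (by
          show k * (k⁻¹ * n.1 * k) * k⁻¹ = n.1
          group)
        right_inv := fun σ => Subtype.ext (by
          show ((k⁻¹ * (k * ⟨σ.1, hP _ σ.2⟩ * k⁻¹) * k : M24) : Equiv.Perm GolayPt) = σ.1
          rw [show k⁻¹ * (k * (⟨σ.1, hP _ σ.2⟩ : M24) * k⁻¹) * k = ⟨σ.1, hP _ σ.2⟩ by group]) }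
  have hn := norm7_ok
  simp only [Bool.and_eq_true, List.contains_iff_mem, Bool.not_eq_true'] at hn
  obtain ⟨⟨⟨⟨⟨⟨⟨-, htrio⟩, -⟩, -⟩, -⟩, hx1⟩, hy1⟩, hne⟩ := hn
  refine ⟨?_, ?_, ?_, ?_⟩
  · rw [Nat.card_congr (Equiv.subtypeEquivRight hN),
      hcard (fun σ => ∃ j < 7, InN σ j) (fun σ ⟨_, _, h, _⟩ => h), inN_counts.1]
  · rw [Nat.card_congr (Equiv.subtypeEquivRight hC), hcard (fun σ => InN σ 1) (fun σ h => h.1),
      inN_counts.2]
  · generalize noncomm7 = w at hx1 hy1 hne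
    obtain ⟨-, ha, -, haok, -⟩ := norm7_mem hx1
    obtain ⟨-, hb, -, hbok, -⟩ := norm7_mem hy1
    obtain ⟨A, hA⟩ : ∃ A : M24, (A : Equiv.Perm GolayPt) = permOf w.1 := ⟨⟨_, ha.1⟩, rfl⟩
    obtain ⟨B, hB⟩ : ∃ B : M24, (B : Equiv.Perm GolayPt) = permOf w.2 := ⟨⟨_, hb.1⟩, rfl⟩
    refine ⟨k * A * k⁻¹, (hC _).2 ?_, k * B * k⁻¹, (hC _).2 ?_, fun e => ?_⟩
    · rw [show k⁻¹ * (k * A * k⁻¹) * k = A by group, hA]; exact ha
    · rw [show k⁻¹ * (k * B * k⁻¹) * k = B by group, hB]; exact hb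
    · apply mt (sqB_iff haok hbok hbok haok).2 (by simp [hne])
      have e' : A * B = B * A := by
        calc A * B = k⁻¹ * (k * A * k⁻¹ * (k * B * k⁻¹)) * k := by group
          _ = k⁻¹ * (k * B * k⁻¹ * (k * A * k⁻¹)) * k := by rw [e]
          _ = B * A := by group
      rw [← hA, ← hB]
      exact congrArg Subtype.val e'
  · refine ⟨(k : Equiv.Perm GolayPt) • toSet trio7, smul_mem_trios k.2 (trio_of_list htrio), fun n hn' => ?_⟩
    obtain ⟨j, hj, h⟩ := (hN n).1 hn'
    obtain ⟨c, hc, e⟩ := inN_list hj h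
    have ht := (norm7_mem hc).2.2.2.2
    rw [e] at ht
    conv_rhs => rw [← ht]
    rw [← mul_smul, ← mul_smul]
    congr 1
    simp [mul_assoc]

end Cfsg.Agent.M24Orbits
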