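import Cfsg.Agent.M24Orbits.Classes
import Cfsg.Agent.M24Orbits.Data2

/-! Pairs of octads: stabilizer orders and distances in the disjointness graph. -/

set_option autoImplicit false
open Cfsg Cfsg.Agent.Golay
open scoped Pointwise

namespace Cfsg.Agent.M24Orbits

/-- Total size of the meet of the members of two families. -/
def meetSum (R X : Fam) : ℕ := ∑ a ∈ R, ∑ b ∈ X, (a ∩ b).card

theorem meetSum_equivariant : Equivariant meetSum := by
  intro g R X
  unfold meetSum
  rw [show g • R = R.image (g • ·) from Finset.image_smul.symm,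
    Finset.sum_image (fun _ _ _ _ h => MulAction.injective g h)]
  refine Finset.sum_congr rfl fun a _ => ?_
  rw [show g • X = X.image (g • ·) from Finset.image_smul.symm,
    Finset.sum_image (fun _ _ _ _ h => MulAction.injective g h)]
  refine Finset.sum_congr rfl fun b _ => ?_
  rw [← Finset.smul_finset_inter, Finset.card_smul_finset]

theorem meetSum_single (o o' : Finset GolayPt) : meetSum ({o} : Fam) {o'} = (o ∩ o').card := by
  simp [meetSum]

theorem pair_class {k : ℕ} (hk : k ∈ [0, 4, 2]) :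
    ∀ o ∈ octads, {X | X ∈ octFams ∧ meetSum ({o} : Fam) X = k}.ncard =
      (if k = 0 then 30 else if k = 4 then 280 else 448) ∧
      ∀ X Y : Fam, X ∈ octFams → Y ∈ octFams → meetSum ({o} : Fam) X = k →
        meetSum ({o} : Fam) Y = k → Y ∈ orbitSet ({o} : Fam) X := by
  intro o ho
  have key : ∀ k ∈ [0, 4, 2], ∃ Q ∈ partsOctOct,
      Q.2.2.2 = (if k = 0 then 30 else if k = 4 then 280 else 448) ∧
      meetSum (toSet rootOct) (toSet Q.2.1) = k ∧
      ∀ P ∈ partsOctOct, meetSum (toSet rootOct) (toSet P.2.1) = k → P.2.2.1 = Q.2.2.1 := by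
    decide +kernel
  obtain ⟨Q, hQ, hn, hc, honly⟩ := key k hk
  have hnd : (partsOctOct.map fun P => P.2.2.1).Nodup := by decide +kernel
  exact class_of_cert okOctOct (fun _ hg _ => smul_mem_octFams hg) octFams_ncard
    (fun P hP => roots_octad P (by simp only [List.mem_append]; exact Or.inl (Or.inl hP)))
    meetSum_equivariant hQ hn hc
    (fun P hP e => List.inj_on_of_nodup_map hnd hP hQ (honly P hP e)) (octad_of_root ho)

theorem pair_move {o o' p p' : Finset GolayPt} (ho : o ∈ octads) (ho' : o' ∈ octads)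
    (hp : p ∈ octads) (hp' : p' ∈ octads) (hne : o ≠ o') (he : (o ∩ o').card = (p ∩ p').card) :
    ∃ g ∈ M24, g • o = p ∧ g • o' = p' := by
  obtain ⟨g, hg, rfl⟩ := M24_octad_transitive ho hp
  have hk : (o ∩ o').card ∈ [0, 4, 2] := by
    rcases inter_octads ho ho' hne with e | e | e <;> simp [e]
  have h1 : meetSum ({g • o} : Fam) {g • o'} = (o ∩ o').card := by
    rw [meetSum_single, ← Finset.smul_finset_inter, Finset.card_smul_finset]
  obtain ⟨k, hkM, hk1, hk2⟩ := (pair_class hk _ (smul_mem_octads hg ho)).2 {g • o'} {p'}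
    ⟨g • o', smul_mem_octads hg ho', rfl⟩ ⟨p', hp', rfl⟩ h1 (by rw [meetSum_single, he])
  refine ⟨k * g, mul_mem hkM hg, ?_, ?_⟩
  · rw [mul_smul]
    exact Finset.singleton_injective (by rw [← Finset.smul_finset_singleton]; exact hk1)
  · rw [mul_smul]
    exact Finset.singleton_injective (by rw [← Finset.smul_finset_singleton]; exact hk2)

theorem pair_stab_card (o o' : Finset GolayPt) (ho : o ∈ octads) (ho' : o' ∈ octads) (k : ℕ)
    (hk : k ∈ [0, 4, 2]) (he : (o ∩ o').card = k) :
    Nat.card ↥(MulAction.stabilizer M24 o ⊓ MulAction.stabilizer M24 o') *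
      (if k = 0 then 30 else if k = 4 then 280 else 448) = 322560 := by
  classical
  obtain ⟨hn, hmove⟩ := pair_class hk o ho
  set T : Set (Finset GolayPt) := {x | x ∈ octads ∧ (o ∩ x).card = k}
  have hT : (fun x => ({x} : Fam)) '' T = {X | X ∈ octFams ∧ meetSum ({o} : Fam) X = k} := by
    ext X
    constructor
    · rintro ⟨x, ⟨hx, hxk⟩, rfl⟩
      exact ⟨⟨x, hx, rfl⟩, by rw [meetSum_single]; exact hxk⟩
    · rintro ⟨⟨x, hx, rfl⟩, hxk⟩
      rw [meetSum_single] at hxk
      exact ⟨x, ⟨hx, hxk⟩, rfl⟩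
  rw [← hT, Set.ncard_image_of_injective _ (fun a b h => Finset.singleton_injective h)] at hn
  have h := card_eq_ncard_mul_stab (M24 ⊓ MulAction.stabilizer (Equiv.Perm GolayPt) o) o' T
    (fun t ht => by
      obtain ⟨g, hg, h1, h2⟩ := hmove {o'} {t} ⟨o', ho', rfl⟩ ⟨t, ht.1, rfl⟩
        (by rw [meetSum_single]; exact he) (by rw [meetSum_single]; exact ht.2)
      exact ⟨g, ⟨hg, Finset.singleton_injective (by rw [← Finset.smul_finset_singleton]; exact h1)⟩,
        Finset.singleton_injective (by rw [← Finset.smul_finset_singleton]; exact h2)⟩)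
    (fun g hg => ⟨smul_mem_octads hg.1 ho', by
      conv_lhs => rw [← show g • o = o from hg.2, ← Finset.smul_finset_inter, Finset.card_smul_finset]
      exact he⟩)
  rw [M24_octad_stab_card ho, hn] at h
  rw [Nat.card_congr (stab2Equiv o o').toEquiv, mul_comm]
  exact h.symm

/-- Disjoint common neighbours. -/
theorem paths_ok :
    (pc (rootOct.getD 0 0 &&& path4.getD 0 0) == 4 &&
      (path4.all fun m => inC m && pc m == 8) && rootOct.getD 0 0 &&& path4.getD 1 0 == 0 &&
      path4.getD 1 0 &&& path4.getD 0 0 == 0 &&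
    pc (rootOct.getD 0 0 &&& path2.getD 0 0) == 2 &&
      (path2.all fun m => inC m && pc m == 8) && rootOct.getD 0 0 &&& path2.getD 1 0 == 0 &&
      path2.getD 1 0 &&& path2.getD 2 0 == 0 && path2.getD 2 0 &&& path2.getD 0 0 == 0 &&
    allB (fun i => !(pc (encode i) == 8 && rootOct.getD 0 0 &&& encode i == 0 &&
      encode i &&& path2.getD 0 0 == 0)) 12 0) = true := by decide +kernel

theorem disjoint_of_and {a b : ℕ} (h : a &&& b = 0) : Disjoint (bset a) (bset b) := by
  rw [Finset.disjoint_iff_inter_eq_empty, ← bset_and, h, bset_zero]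

theorem adj_iff {o o' : Finset GolayPt} (ho : o ∈ octads) (ho' : o' ∈ octads) :
    (blockGraph octads).Adj ⟨o, ho⟩ ⟨o', ho'⟩ ↔ Disjoint o o' := by
  rw [blockGraph, SimpleGraph.fromRel_adj]
  constructor
  · rintro ⟨-, h | h⟩
    exacts [h, h.symm]
  · intro h
    exact ⟨fun e => octad_ne_of_disjoint ho h (congrArg Subtype.val e), Or.inl h⟩

theorem walk_two {V : Type*} {G : SimpleGraph V} {u v : V} :
    ∀ p : G.Walk u v, p.length = 2 → ∃ x, G.Adj u x ∧ G.Adj x v
  | .nil, h => by simp at h
  | .cons h1 .nil, h => by simp at h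
  | .cons h1 (.cons h2 .nil), _ => ⟨_, h1, h2⟩
  | .cons h1 (.cons h2 (.cons h3 q)), h => by simp at h

theorem distances (o o' : Finset GolayPt) (ho : o ∈ octads) (ho' : o' ∈ octads) (hne : o ≠ o') :
    (blockGraph octads).Reachable ⟨o, ho⟩ ⟨o', ho'⟩ ∧
    (((blockGraph octads).dist ⟨o, ho⟩ ⟨o', ho'⟩ = 1 ∧ (o ∩ o').card = 0) ∨
     ((blockGraph octads).dist ⟨o, ho⟩ ⟨o', ho'⟩ = 2 ∧ (o ∩ o').card = 4) ∨
     ((blockGraph octads).dist ⟨o, ho⟩ ⟨o', ho'⟩ = 3 ∧ (o ∩ o').card = 2)) := by
  have hp := paths_ok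
  simp only [Bool.and_eq_true, beq_iff_eq, List.all_eq_true] at hp
  obtain ⟨⟨⟨⟨⟨⟨⟨⟨⟨a1, a2⟩, a3⟩, a4⟩, b1⟩, b2⟩, b3⟩, b4⟩, b5⟩, b6⟩ := hp
  have hoct : ∀ l : List ℕ, (∀ m ∈ l, inC m = true ∧ pc m = 8) → ∀ i < l.length,
      bset (l.getD i 0) ∈ octads := fun l hl i hi => by
    rw [List.getD_eq_getElem _ _ hi]
    exact octad_of_mask (by simp [(hl _ (List.getElem_mem hi)).1, (hl _ (List.getElem_mem hi)).2])
  have h0 : bset (rootOct.getD 0 0) ∈ octads := octad_base
  set d := (blockGraph octads).dist ⟨o, ho⟩ ⟨o', ho'⟩ with hd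
  have hne' : (⟨o, ho⟩ : octads) ≠ ⟨o', ho'⟩ := fun e => hne (congrArg Subtype.val e)
  rcases inter_octads ho ho' hne with e | e | e
  · have hadj : (blockGraph octads).Adj ⟨o, ho⟩ ⟨o', ho'⟩ :=
      (adj_iff ho ho').2 (Finset.disjoint_iff_inter_eq_empty.2 (Finset.card_eq_zero.1 e))
    exact ⟨hadj.reachable, Or.inl ⟨SimpleGraph.dist_eq_one_iff_adj.2 hadj, e⟩⟩
  · -- meeting in two points
    obtain ⟨g, hg, rfl, rfl⟩ := pair_move h0 (hoct _ b2 0 (by decide)) ho ho'
      (fun he => by
        have := congrArg Finset.card he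
        have h2 := congrArg (fun s => (bset (rootOct.getD 0 0) ∩ s).card) he
        simp only [Finset.inter_self, ← bset_and, card_bset] at h2
        rw [b1, ← card_bset, card_octad h0] at h2
        omega)
      (by rw [← bset_and, card_bset, b1, e])
    have hc := smul_mem_octads hg (hoct _ b2 1 (by decide))
    have hc' := smul_mem_octads hg (hoct _ b2 2 (by decide))
    have hdj : ∀ {a b : Finset GolayPt}, Disjoint a b → Disjoint (g • a) (g • b) := by
      intro a b hab
      rw [Finset.disjoint_iff_inter_eq_empty] at hab ⊢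
      rw [← Finset.smul_finset_inter, hab, Finset.smul_finset_empty]
    let w := SimpleGraph.Walk.cons ((adj_iff ho hc).2 (hdj (disjoint_of_and b3)))
      (SimpleGraph.Walk.cons ((adj_iff hc hc').2 (hdj (disjoint_of_and b4)))
        (SimpleGraph.Walk.cons ((adj_iff hc' ho').2 (hdj (disjoint_of_and b5))) SimpleGraph.Walk.nil))
    have hle : d ≤ 3 := SimpleGraph.dist_le w
    refine ⟨w.reachable, Or.inr (Or.inr ⟨?_, e⟩)⟩
    have hne0 : d ≠ 0 := fun h => hne' ((w.reachable.dist_eq_zero_iff).1 h)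
    have hne1 : d ≠ 1 := fun h => by
      have := Finset.disjoint_iff_inter_eq_empty.1 ((adj_iff ho ho').1 (SimpleGraph.dist_eq_one_iff_adj.1 h))
      rw [this, Finset.card_empty] at e
      omega
    have hne2 : d ≠ 2 := by
      intro h
      obtain ⟨p, hp⟩ := w.reachable.exists_walk_length_eq_dist
      rw [← hd, h] at hp
      obtain ⟨⟨x, hx⟩, h1, h2⟩ := walk_two p hp
      have d1 := (adj_iff ho hx).1 h1
      have d2 := (adj_iff hx ho').1 h2
      set y := g⁻¹ • x with hy
      have hyo : y ∈ octads := smul_mem_octads (inv_mem hg) hx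
      obtain ⟨i, hi, hie⟩ := inC_eq_encode (mem_octads_iff.1 hyo).1
      have := allB_spec _ 12 0 b6 i (Nat.zero_le _) (by simpa using hi)
      simp only [Bool.not_eq_true', Bool.and_eq_false_iff, beq_eq_false_iff_ne] at this
      have hym : bset (encode i) = y := by rw [hie, bset_mask]
      have hpre : ∀ {a : Finset GolayPt}, Disjoint (g • a) x → Disjoint a y := by
        intro a hax
        rw [Finset.disjoint_iff_inter_eq_empty] at hax ⊢
        apply Finset.eq_empty_of_forall_notMem
        intro q hq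
        have : g • q ∈ g • a ∩ x := by
          rw [Finset.mem_inter] at hq ⊢
          refine ⟨Finset.smul_mem_smul_finset hq.1, ?_⟩
          rw [← smul_inv_smul g x]
          exact Finset.smul_mem_smul_finset hq.2
        rw [hax] at this
        exact Finset.notMem_empty _ this
      rcases this with (h8 | h9) | h10
      · exact h8 (by rw [hie]; exact (mem_octads_iff.1 hyo).2)
      · refine h9 ?_
        have := Finset.disjoint_iff_inter_eq_empty.1 (hpre d1)
        rw [← hym, ← bset_and] at this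
        exact eq_of_bset_eq (lt_of_le_of_lt Nat.and_le_right (encode_lt i)) (by norm_num)
          (this.trans bset_zero.symm)
      · refine h10 ?_
        have := Finset.disjoint_iff_inter_eq_empty.1 (hpre d2.symm)
        rw [← hym, ← bset_and, Nat.and_comm] at this
        exact eq_of_bset_eq (lt_of_le_of_lt Nat.and_le_left (encode_lt i)) (by norm_num)
          (this.trans bset_zero.symm)
    omega
  · obtain ⟨g, hg, rfl, rfl⟩ := pair_move h0 (hoct _ a2 0 (by decide)) ho ho'
      (fun he => by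
        have h2 := congrArg (fun s => (bset (rootOct.getD 0 0) ∩ s).card) he
        simp only [Finset.inter_self, ← bset_and, card_bset] at h2
        rw [a1, ← card_bset, card_octad h0] at h2
        omega)
      (by rw [← bset_and, card_bset, a1, e])
    have hc := smul_mem_octads hg (hoct _ a2 1 (by decide))
    have hdj : ∀ {a b : Finset GolayPt}, Disjoint a b → Disjoint (g • a) (g • b) := by
      intro a b hab
      rw [Finset.disjoint_iff_inter_eq_empty] at hab ⊢
      rw [← Finset.smul_finset_inter, hab, Finset.smul_finset_empty]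
    let w := SimpleGraph.Walk.cons ((adj_iff ho hc).2 (hdj (disjoint_of_and a3)))
      (SimpleGraph.Walk.cons ((adj_iff hc ho').2 (hdj (disjoint_of_and a4))) SimpleGraph.Walk.nil)
    have hle : d ≤ 2 := SimpleGraph.dist_le w
    refine ⟨w.reachable, Or.inr (Or.inl ⟨?_, e⟩)⟩
    have hne0 : d ≠ 0 := fun h => hne' ((w.reachable.dist_eq_zero_iff).1 h)
    have hne1 : d ≠ 1 := fun h => by
      have := Finset.disjoint_iff_inter_eq_empty.1 ((adj_iff ho ho').1 (SimpleGraph.dist_eq_one_iff_adj.1 h))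
      rw [this, Finset.card_empty] at e
      omega
    omega

theorem octad_graph (o o' : Finset GolayPt) (ho : o ∈ octads) (ho' : o' ∈ octads) (hne : o ≠ o') :
    (blockGraph octads).Connected ∧
    ((blockGraph octads).dist ⟨o, ho⟩ ⟨o', ho'⟩ = 1 ↔ (o ∩ o').card = 0) ∧
    ((blockGraph octads).dist ⟨o, ho⟩ ⟨o', ho'⟩ = 2 ↔ (o ∩ o').card = 4) ∧
    ((blockGraph octads).dist ⟨o, ho⟩ ⟨o', ho'⟩ = 3 ↔ (o ∩ o').card = 2) := by
  refine ⟨?_, ?_⟩
  · haveI : Nonempty octads := ⟨⟨o, ho⟩⟩
    refine ⟨fun a b => ?_⟩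
    by_cases e : a = b
    · exact e ▸ SimpleGraph.Reachable.refl _
    · exact (distances a.1 b.1 a.2 b.2 fun h => e (Subtype.ext h)).1
  rcases (distances o o' ho ho' hne).2 with ⟨h, e⟩ | ⟨h, e⟩ | ⟨h, e⟩ <;> rw [h, e] <;> simp

end Cfsg.Agent.M24Orbits
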