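import Cfsg.Agent.M24Orbits.Hexad

/-! The outer class on M22, the two classes of M11 in M12, six-point sets. -/

set_option autoImplicit false
open Cfsg Cfsg.Agent.Golay
open scoped Pointwise

namespace Cfsg.Agent.M24Orbits

theorem conj_stab {β : Type*} [MulAction (Equiv.Perm GolayPt) β] (g : Equiv.Perm GolayPt) (b : β) :
    MulAut.conj g • MulAction.stabilizer (Equiv.Perm GolayPt) b =
      MulAction.stabilizer (Equiv.Perm GolayPt) (g • b) :=
  (MulAction.stabilizer_smul_eq_stabilizer_map_conj g b).symm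

theorem conj_M24 {g : Equiv.Perm GolayPt} (hg : g ∈ M24) : MulAut.conj g • M24 = M24 :=
  Subgroup.conj_smul_eq_self_of_mem hg

theorem m11_pair :
    Nonempty (↥(Spor.M12 ⊓ MulAction.stabilizer (Equiv.Perm GolayPt) (none : GolayPt)) ≃* ↥Spor.M11) ∧
    (¬ ∃ k ∈ Spor.M12, MulAut.conj k • Spor.M11 =
        Spor.M12 ⊓ MulAction.stabilizer (Equiv.Perm GolayPt) (none : GolayPt)) ∧
    ∃ g ∈ M24, g • Spor.squareDodecad = Finset.univ \ Spor.squareDodecad ∧
      MulAut.conj g • Spor.M11 =
        Spor.M12 ⊓ MulAction.stabilizer (Equiv.Perm GolayPt) (none : GolayPt) := by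
  classical
  set d := Spor.squareDodecad with hdd
  have hd : d ∈ dodecads := squareDodecad_mem
  have h0 : (some 0 : GolayPt) ∈ d := zero_mem_squareDodecad
  have hnone : (none : GolayPt) ∉ d := by rw [hdd, squareDodecad_eq]; decide +kernel
  have hd' : Finset.univ \ d ∈ dodecads := by
    refine ⟨?_, ?_⟩
    · rw [← Finset.compl_eq_univ_sdiff]
      exact compl_mem_supports hd.1
    · rw [Finset.card_sdiff_of_subset (Finset.subset_univ _), Finset.card_univ, card_golayPt, card_dodecad hd]
  -- an element of M24 exchanging the dodecads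
  obtain ⟨g₁, hg₁, hg₁d⟩ := M24_dodecad_transitive hd hd'
  have h0' : g₁ (some 0) ∈ Finset.univ \ d := by
    rw [← hg₁d]; exact Finset.smul_mem_smul_finset h0
  obtain ⟨g₂, hg₂, hg₂d, hg₂i⟩ := exists_mem_dodecad_stab hd' (k := 1) (by norm_num)
    ⟨fun _ => g₁ (some 0), fun a b _ => Subsingleton.elim a b⟩
    ⟨fun _ => (none : GolayPt), fun a b _ => Subsingleton.elim a b⟩ (fun _ => h0')
    (fun _ => Finset.mem_sdiff.2 ⟨Finset.mem_univ _, hnone⟩)
  set g := g₂ * g₁ with hg
  have hgM : g ∈ M24 := mul_mem hg₂ hg₁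
  have hgd : g • d = Finset.univ \ d := by rw [hg, mul_smul, hg₁d, hg₂d]
  have hg0 : g • (some 0 : GolayPt) = none := hg₂i 0
  have hst : MulAction.stabilizer (Equiv.Perm GolayPt) (Finset.univ \ d) =
      MulAction.stabilizer (Equiv.Perm GolayPt) d := by
    ext σ
    have hu : σ • (Finset.univ : Finset GolayPt) = Finset.univ := Finset.smul_finset_univ
    simp only [MulAction.mem_stabilizer_iff, Finset.smul_finset_sdiff, hu]
    constructor
    · intro e
      have := congrArg (Finset.univ \ ·) e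
      simpa [← Finset.compl_eq_univ_sdiff] using this
    · intro e; rw [e]
  have hconj : MulAut.conj g • Spor.M11 =
      Spor.M12 ⊓ MulAction.stabilizer (Equiv.Perm GolayPt) (none : GolayPt) := by
    rw [Spor.M11, Spor.M12, Subgroup.smul_inf, Subgroup.smul_inf, conj_M24 hgM, conj_stab, conj_stab,
      hgd, hg0, hst]
  refine ⟨?_, ?_, ⟨g, hgM, hgd, hconj⟩⟩
  · rw [← hconj]
    exact ⟨(Subgroup.equivSMul (MulAut.conj g) Spor.M11).symm⟩
  rintro ⟨k, hk, e⟩
  have hkd : k • d = d := hk.2
  -- every element of the second subgroup fixes `k 0`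
  have hfix : ∀ y ∈ Spor.M12 ⊓ MulAction.stabilizer (Equiv.Perm GolayPt) (none : GolayPt),
      y (k (some 0)) = k (some 0) := by
    intro y hy
    rw [← e, Subgroup.mem_smul_pointwise_iff_exists] at hy
    obtain ⟨x, hx, rfl⟩ := hy
    have hx0 : x (some 0) = some 0 := hx.2
    simp [hx0]
  have hk0 : k (some 0) ∈ d := by rw [← hkd]; exact Finset.smul_mem_smul_finset h0
  have hgi : g⁻¹ (none : GolayPt) = some 0 := by
    rw [← hg0]; exact Equiv.symm_apply_apply g _
  have hpre : ∀ x ∈ d, g⁻¹ x ∈ Finset.univ \ d := by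
    intro x hx
    simp only [Finset.mem_sdiff, Finset.mem_univ, true_and]
    intro h
    have : g (g⁻¹ x) ∈ g • d := Finset.smul_mem_smul_finset h
    rw [hgd, show g (g⁻¹ x) = x from Equiv.apply_symm_apply g x] at this
    simp [hx] at this
  obtain ⟨x, hx, hxq⟩ := m11_moves (g⁻¹ (k (some 0))) (hpre _ hk0)
  have hy : g * x * g⁻¹ ∈ Spor.M12 ⊓ MulAction.stabilizer (Equiv.Perm GolayPt) (none : GolayPt) := by
    rw [← hconj, Subgroup.mem_smul_pointwise_iff_exists]
    exact ⟨x, hx, rfl⟩
  have := hfix _ hy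
  rw [Equiv.Perm.mul_apply, Equiv.Perm.mul_apply] at this
  exact hxq ((Equiv.symm_apply_apply g _).symm.trans (congrArg g.symm this))
where
  m11_moves (p : GolayPt) (hp : p ∈ Finset.univ \ Spor.squareDodecad) :
      ∃ x ∈ Spor.M11, x p ≠ p := by
    have key : ∀ i < 24, sqMask.testBit i = false → ∃ c ∈ m12Trans.getD 1 [],
        (isAut c && mapMask c sqMask == sqMask && app c 0 == 0) = true ∧ app c i ≠ i := by
      decide +kernel
    rw [squareDodecad_eq] at hp
    simp only [Finset.mem_sdiff, Finset.mem_univ, true_and, mem_bset, Bool.not_eq_true] at hp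
    obtain ⟨c, -, hc, hne⟩ := key _ (idx_lt p) hp
    simp only [Bool.and_eq_true, beq_iff_eq] at hc
    obtain ⟨⟨hA, hB⟩, hC⟩ := hc
    have hok := permOK_of_isAut hA
    refine ⟨permOf c, ⟨⟨permOf_mem_M24 hA, ?_⟩, ?_⟩, fun e => hne ?_⟩
    · show permOf c • Spor.squareDodecad = Spor.squareDodecad
      rw [squareDodecad_eq, ← bset_mapMask hok, hB]
    · show permOf c (some 0) = some 0
      exact idx_injective (by rw [idx_permOf hok, show idx (some 0) = 0 from rfl, hC])
    · rw [← idx_permOf hok, e]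

theorem swap_not_mem : Equiv.swap (none : GolayPt) (some 0) ∉ M24 := by
  rw [mem_M24_iff_rows]
  intro h
  have key : ∃ r ∈ rows, inC (mask (Equiv.swap (none : GolayPt) (some 0) • bset r)) = false := by
    decide +kernel
  obtain ⟨r, hr, hf⟩ := key
  rw [mem_supports_iff.1 (h r hr)] at hf
  exact Bool.noConfusion hf

theorem m22_outer (g : Equiv.Perm GolayPt) (hg : g ∈ M24) (h₁ : g none = some 0)
    (h₂ : g (some 0) = none) :
    Spor.M22.relIndex (M24 ⊓ MulAction.stabilizer (Equiv.Perm GolayPt)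
        ({none, some 0} : Finset GolayPt)) = 2 ∧
    (∀ x ∈ Spor.M22, g * x * g⁻¹ ∈ Spor.M22) ∧
    ¬ ∃ h ∈ Spor.M22, ∀ x ∈ Spor.M22, g * x * g⁻¹ = h * x * h⁻¹ := by
  classical
  have hi₁ : g⁻¹ (some 0) = none := by rw [← h₁]; exact Equiv.symm_apply_apply g _
  have hi₂ : g⁻¹ none = some 0 := by rw [← h₂]; exact Equiv.symm_apply_apply g _
  refine ⟨?_, ?_, ?_⟩
  · set pr : Finset GolayPt := {none, some 0} with hpr
    set H := M24 ⊓ MulAction.stabilizer (Equiv.Perm GolayPt) pr
    have hgH : g ∈ H := by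
      refine ⟨hg, ?_⟩
      show g • pr = pr
      rw [hpr, Finset.smul_finset_insert, Finset.smul_finset_singleton, Equiv.Perm.smul_def,
        Equiv.Perm.smul_def, h₁, h₂, Finset.pair_comm]
    have hmem : ∀ x ∈ H, ∀ p ∈ pr, x p ∈ pr := by
      intro x hx p hp
      have : x • pr = pr := hx.2
      rw [← this]
      exact Finset.smul_mem_smul_finset hp
    have hle : Spor.M22 ≤ H := by
      intro x hx
      refine ⟨hx.1.1, ?_⟩
      show x • pr = pr
      have e1 : x none = none := hx.1.2
      have e2 : x (some 0) = some 0 := hx.2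
      rw [hpr, Finset.smul_finset_insert, Finset.smul_finset_singleton, Equiv.Perm.smul_def,
        Equiv.Perm.smul_def, e1, e2]
    have hstab : H ⊓ MulAction.stabilizer (Equiv.Perm GolayPt) (none : GolayPt) = Spor.M22 := by
      refine le_antisymm (fun x hx => ?_) (le_inf hle fun x hx => hx.1.2)
      have e1 : x none = none := hx.2
      refine ⟨⟨hx.1.1, e1⟩, ?_⟩
      show x (some 0) = some 0
      have := hmem x hx.1 (some 0) (by simp [hpr])
      simp only [hpr, Finset.mem_insert, Finset.mem_singleton] at this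
      rcases this with e | e
      · exact absurd (x.injective (e.trans e1.symm)) (by simp)
      · exact e
    have hcard : Nat.card H = 2 * Nat.card Spor.M22 := by
      have := card_eq_orbit_mul_stab H (none : GolayPt) pr (fun t ht => by
        simp only [hpr, Finset.mem_insert, Finset.mem_singleton] at ht
        rcases ht with rfl | rfl
        exacts [⟨1, one_mem _, rfl⟩, ⟨g, hgH, h₁⟩]) (fun x hx => hmem x hx none (by simp [hpr]))
      rw [hstab] at this
      simpa [hpr] using this
    have := Subgroup.card_mul_index (Spor.M22.subgroupOf H)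
    rw [Nat.card_congr (Subgroup.subgroupOfEquivOfLe hle).toEquiv, hcard, mul_comm 2] at this
    exact Nat.eq_of_mul_eq_mul_left (by rw [spor_M22_card]; norm_num) this
  · intro x hx
    have e1 : x none = none := hx.1.2
    have e2 : x (some 0) = some 0 := hx.2
    refine ⟨⟨Subgroup.mul_mem M24 (Subgroup.mul_mem M24 hg hx.1.1) (Subgroup.inv_mem M24 hg), ?_⟩, ?_⟩
    · show (g * x * g⁻¹) none = none
      simp only [Equiv.Perm.mul_apply]
      rw [hi₂, e2, h₂]
    · show (g * x * g⁻¹) (some 0) = some 0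
      simp only [Equiv.Perm.mul_apply]
      rw [hi₁, e1, h₁]
  rintro ⟨h, hh, heq⟩
  set c := h⁻¹ * g with hc
  have hcM : c ∈ M24 := mul_mem (inv_mem hh.1.1) hg
  have hc0 : c none = some 0 := by
    rw [hc, Equiv.Perm.mul_apply, h₁]
    exact Equiv.symm_apply_eq h |>.2 (Eq.symm hh.2)
  have hc1 : c (some 0) = none := by
    rw [hc, Equiv.Perm.mul_apply, h₂]
    exact Equiv.symm_apply_eq h |>.2 (Eq.symm hh.1.2)
  have hcomm : ∀ x ∈ Spor.M22, c * x = x * c := fun x hx => by
    calc c * x = h⁻¹ * (g * x * g⁻¹) * g := by rw [hc]; group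
      _ = h⁻¹ * (h * x * h⁻¹) * g := by rw [heq x hx]
      _ = x * c := by rw [hc]; group
  have hfix : ∀ p, p ≠ none → p ≠ some 0 → c p = p := by
    intro p hp hp'
    by_contra hne
    have hq : c p ≠ none ∧ c p ≠ some 0 := by
      constructor
      · intro e; exact hp' (c.injective (e.trans hc1.symm))
      · intro e; exact hp (c.injective (e.trans hc0.symm))
    obtain ⟨t, -, ht⟩ := Finset.exists_mem_notMem_of_card_lt_card
      (s := ({none, some 0, p, c p} : Finset GolayPt)) (t := Finset.univ) (by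
        refine lt_of_le_of_lt Finset.card_le_four ?_
        rw [Finset.card_univ, card_golayPt]; norm_num)
    simp only [Finset.mem_insert, Finset.mem_singleton, not_or] at ht
    obtain ⟨x, hx, hl⟩ := exists_mem_M24_list [none, some 0, p, c p] [none, some 0, p, t]
      (by simp [hq.1.symm, hq.2.symm, Ne.symm hp, Ne.symm hp', Ne.symm hne])
      (by simp [Ne.symm hp, Ne.symm hp', Ne.symm ht.1, Ne.symm ht.2.1, Ne.symm ht.2.2.1])
      rfl (by simp)
    simp only [List.map_cons, List.map_nil, List.cons.injEq, and_true] at hl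
    have := congrArg (fun σ : Equiv.Perm GolayPt => σ p) (hcomm x ⟨⟨hx, hl.1⟩, hl.2.1⟩)
    simp only [Equiv.Perm.mul_apply, hl.2.2.1, hl.2.2.2] at this
    exact ht.2.2.2 this.symm
  refine swap_not_mem ?_
  convert hcM using 1
  ext p : 1
  by_cases hp : p = none
  · rw [hp, Equiv.swap_apply_left, hc0]
  by_cases hp' : p = some 0
  · rw [hp', Equiv.swap_apply_right, hc1]
  rw [Equiv.swap_apply_of_ne_of_ne hp hp', hfix p hp hp']

end Cfsg.Agent.M24Orbits
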