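import Cfsg.Agent.M24Orbits.Elements

/-! The subgroup fixing a dodecad and three of its points. -/

set_option autoImplicit false
open Cfsg Cfsg.Agent.Golay
open scoped Pointwise

namespace Cfsg.Agent.M24Orbits

/-- The representative group. -/
def grp3 : Subgroup (Equiv.Perm GolayPt) :=
  M24 ⊓ MulAction.stabilizer (Equiv.Perm GolayPt) (bset sqMask) ⊓
    MulAction.stabilizer (Equiv.Perm GolayPt) (pt 0) ⊓ MulAction.stabilizer (Equiv.Perm GolayPt) (pt 1) ⊓
    MulAction.stabilizer (Equiv.Perm GolayPt) (pt 2)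

/-- The `m`-th power is the identity. -/
def powB (m c : ℕ) : Bool :=
  (List.range 24).all fun i => (List.range m).foldl (fun j _ => app c j) i == i

/-- Codes of a quaternion group of order eight. -/
def qcode : QuaternionGroup 2 → ℕ
  | .a i => quat.getD i.val 0
  | .xa i => quat.getD (4 + i.val) 0

theorem stab3_ok :
    ((stab3.all fun c => isAut c && decide (c < 2 ^ 120) && mapMask c sqMask == sqMask && app c 0 == 0 &&
        app c 1 == 1 && app c 2 == 2 && (!powB 9 c || powB 3 c)) &&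
      decide stab3.Nodup && stab3.length == 72 && (stab3.filter (powB 3)).length == 9 &&
      ((List.range 24).all fun a => (List.range 24).all fun b =>
        !(sqMask.testBit a && sqMask.testBit b && decide (2 < a) && decide (2 < b) && !(a == b)) ||
          stab3.any fun c => app c 3 == a && app c 4 == b) &&
      quat.all (fun c => stab3.contains c) && decide quat.Nodup && quat.length == 8 &&
      [0, 1, 2, 3, 4].all fun i => sqMask.testBit i) = true := by decide +kernel

theorem qcode_ok : ∀ g h : QuaternionGroup 2, qcode (g * h) = comp (qcode g) (qcode h) := by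
  decide +kernel

theorem qcode_inj : (∀ g h : QuaternionGroup 2, qcode g = qcode h → g = h) ∧
    ∀ g : QuaternionGroup 2, qcode g ∈ quat := by decide +kernel

theorem powB_iff {c : ℕ} (h : permOK c = true) (m : ℕ) : powB m c = true ↔ permOf c ^ m = 1 := by
  simp only [powB, List.all_eq_true, beq_iff_eq]
  constructor
  · intro e
    refine Equiv.ext fun q => idx_injective ?_
    rw [← foldl_app h, e _ (List.mem_range.2 (idx_lt q)), Equiv.Perm.one_apply]
  · intro e i hi
    have := foldl_app h (pt i) m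
    rw [e, Equiv.Perm.one_apply, idx_pt (List.mem_range.1 hi)] at this
    exact this

theorem stab3_mem {c : ℕ} (hc : c ∈ stab3) :
    permOf c ∈ grp3 ∧ permOK c = true ∧ c < 2 ^ 120 ∧ (permOf c ^ 9 = 1 → permOf c ^ 3 = 1) := by
  have h := stab3_ok
  simp only [Bool.and_eq_true, List.all_eq_true, beq_iff_eq, Bool.or_eq_true, Bool.not_eq_true',
    decide_eq_true_eq] at h
  obtain ⟨⟨⟨⟨⟨⟨ha, hlt⟩, hm⟩, e0⟩, e1⟩, e2⟩, hp⟩ := h.1.1.1.1.1.1.1.1 c hc
  have hok := permOK_of_isAut ha
  refine ⟨⟨⟨⟨⟨permOf_mem_M24 ha, ?_⟩, ?_⟩, ?_⟩, ?_⟩, hok, hlt, fun e => ?_⟩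
  · show permOf c • bset sqMask = bset sqMask
    rw [← bset_mapMask hok, hm]
  · show permOf c (pt 0) = pt 0
    rw [permOf_pt hok (by norm_num), e0]
  · show permOf c (pt 1) = pt 1
    rw [permOf_pt hok (by norm_num), e1]
  · show permOf c (pt 2) = pt 2
    rw [permOf_pt hok (by norm_num), e2]
  · rcases hp with hf | ht
    · rw [(powB_iff hok 9).2 e] at hf; exact absurd hf (by simp)
    · exact (powB_iff hok 3).1 ht

theorem grp3_list {g : Equiv.Perm GolayPt} (hg : g ∈ grp3) : ∃ c ∈ stab3, permOf c = g := by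
  obtain ⟨⟨⟨⟨hM, hd⟩, h0⟩, h1⟩, h2⟩ := hg
  replace hd : g • bset sqMask = bset sqMask := hd
  replace h0 : g (pt 0) = pt 0 := h0
  replace h1 : g (pt 1) = pt 1 := h1
  replace h2 : g (pt 2) = pt 2 := h2
  have h := stab3_ok
  simp only [Bool.and_eq_true, List.all_eq_true, List.any_eq_true, beq_iff_eq, Bool.or_eq_true,
    Bool.not_eq_true', Bool.and_eq_false_iff, decide_eq_false_iff_not, Bool.not_eq_false',
    beq_eq_false_iff_ne] at h
  obtain ⟨⟨⟨⟨-, hpair⟩, -⟩, -⟩, hbase⟩ :
      ((((True ∧ _) ∧ _) ∧ _) ∧ _) := ⟨⟨⟨⟨trivial, h.1.1.1.1.2⟩, h.1.1.1.2⟩, h.1.1.2⟩, h.2⟩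
  have hb : ∀ i < 5, pt i ∈ bset sqMask := by
    intro i hi
    rw [mem_bset, idx_pt (by omega)]
    exact hbase i (by interval_cases i <;> simp)
  have hin : ∀ i < 5, g (pt i) ∈ bset sqMask := fun i hi => by
    rw [← hd]; exact Finset.smul_mem_smul_finset (hb i hi)
  have hne : ∀ i < 24, ∀ k < 24, g (pt i) = pt k → g (pt k) = pt k → i = k := by
    intro i hi k hk e ek
    have := congrArg idx (g.injective (e.trans ek.symm))
    rwa [idx_pt hi, idx_pt hk] at this
  have hbig : ∀ i, i = 3 ∨ i = 4 → 2 < idx (g (pt i)) := by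
    intro i hi
    by_contra hle
    have e : g (pt i) = pt (idx (g (pt i))) := (pt_idx _).symm
    set k := idx (g (pt i))
    have := hne i (by omega) k (by omega) e (by
      interval_cases k <;> assumption)
    omega
  have h34 : idx (g (pt 3)) ≠ idx (g (pt 4)) := fun e => by
    have := congrArg idx (g.injective (idx_injective e))
    rw [idx_pt (by norm_num), idx_pt (by norm_num)] at this
    omega
  obtain ⟨c, hc, e3, e4⟩ : ∃ c ∈ stab3, app c 3 = idx (g (pt 3)) ∧ app c 4 = idx (g (pt 4)) := by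
    rcases hpair _ (List.mem_range.2 (idx_lt (g (pt 3)))) _ (List.mem_range.2 (idx_lt (g (pt 4)))) with hf | he
    · have t3 := mem_bset.1 (hin 3 (by norm_num))
      have t4 := mem_bset.1 (hin 4 (by norm_num))
      rcases hf with (((hf | hf) | hf) | hf) | hf
      · rw [hf] at t3; simp at t3
      · rw [hf] at t4; simp at t4
      · exact absurd (hbig 3 (Or.inl rfl)) hf
      · exact absurd (hbig 4 (Or.inr rfl)) hf
      · exact absurd hf h34
    · exact he
  obtain ⟨hmem, hok, -, -⟩ := stab3_mem hc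
  obtain ⟨⟨⟨⟨cM, cd⟩, c0⟩, c1⟩, c2⟩ := hmem
  replace cd : permOf c • bset sqMask = bset sqMask := cd
  refine ⟨c, hc, ?_⟩
  have hfix : ∀ i : Fin 5, ((permOf c)⁻¹ * g) (pt i) = pt i := by
    intro i
    rw [Equiv.Perm.mul_apply, Equiv.Perm.inv_eq_iff_eq]
    fin_cases i
    · exact h0.trans (Eq.symm c0)
    · exact h1.trans (Eq.symm c1)
    · exact h2.trans (Eq.symm c2)
    · show g (pt 3) = permOf c (pt 3)
      rw [permOf_pt hok (by norm_num), e3, pt_idx]
    · show g (pt 4) = permOf c (pt 4)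
      rw [permOf_pt hok (by norm_num), e4, pt_idx]
  have := eq_one_of_fix_five sqMask_dodecad (mul_mem (inv_mem cM) hM)
    (by rw [mul_smul, hd, inv_smul_eq_iff, cd])
    ⟨fun i : Fin 5 => pt i, fun a b e => by
      have := congrArg idx e
      rw [idx_pt (by omega), idx_pt (by omega)] at this
      exact Fin.ext this⟩
    (fun i => hb i i.2) hfix
  exact inv_mul_eq_one.1 this

theorem grp3_card : Nat.card grp3 = 72 ∧ Nat.card {g : grp3 // g ^ 3 = 1} = 9 ∧
    ∀ g : grp3, g ^ 9 = 1 → g ^ 3 = 1 := by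
  classical
  have h := stab3_ok
  simp only [Bool.and_eq_true, decide_eq_true_eq, beq_iff_eq] at h
  obtain ⟨⟨⟨⟨⟨⟨⟨⟨-, hnd⟩, hlen⟩, h9⟩, -⟩, -⟩, -⟩, -⟩, -⟩ := h
  have hinj : ∀ x ∈ stab3, ∀ y ∈ stab3, permOf x = permOf y → x = y := fun x hx y hy e =>
    code_ext (stab3_mem hx).2.2.1 (stab3_mem hy).2.2.1 (stab3_mem hx).2.1 (stab3_mem hy).2.1 e
  refine ⟨?_, ?_, ?_⟩
  · rw [← hlen, ← List.length_map (as := stab3) permOf,
      ← List.toFinset_card_of_nodup (List.Nodup.map_on hinj hnd), ← Set.ncard_coe_finset,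
      ← Nat.card_coe_set_eq]
    refine Nat.card_congr (Equiv.subtypeEquivRight fun g => ?_)
    simp only [Finset.mem_coe, List.mem_toFinset, List.mem_map]
    exact ⟨grp3_list, by rintro ⟨c, hc, rfl⟩; exact (stab3_mem hc).1⟩
  · rw [← h9, ← List.length_map (as := stab3.filter (powB 3)) permOf,
      ← List.toFinset_card_of_nodup (List.Nodup.map_on (fun x hx y hy e => hinj x (List.mem_filter.1 hx).1 y
        (List.mem_filter.1 hy).1 e) (hnd.filter _)), ← Set.ncard_coe_finset, ← Nat.card_coe_set_eq]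
    refine Nat.card_congr ((Equiv.subtypeSubtypeEquivSubtypeExists _ _).trans
      (Equiv.subtypeEquivRight fun g => ?_))
    simp only [Finset.mem_coe, List.mem_toFinset, List.mem_map, List.mem_filter]
    constructor
    · rintro ⟨hg, e⟩
      obtain ⟨c, hc, rfl⟩ := grp3_list hg
      exact ⟨c, ⟨hc, (powB_iff (stab3_mem hc).2.1 3).2 (congrArg Subtype.val e)⟩, rfl⟩
    · rintro ⟨c, ⟨hc, e⟩, rfl⟩
      exact ⟨(stab3_mem hc).1, Subtype.ext ((powB_iff (stab3_mem hc).2.1 3).1 e)⟩
  · rintro ⟨g, hg⟩ e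
    obtain ⟨c, hc, rfl⟩ := grp3_list hg
    exact Subtype.ext ((stab3_mem hc).2.2.2 (congrArg Subtype.val e))

theorem quat_embeds : ∃ φ : QuaternionGroup 2 →* grp3, Function.Injective φ := by
  have h := stab3_ok
  simp only [Bool.and_eq_true, List.all_eq_true, List.contains_iff_mem] at h
  have hq : ∀ g, qcode g ∈ stab3 := fun g => h.1.1.1.2 _ (qcode_inj.2 g)
  refine ⟨MonoidHom.mk' (fun g => ⟨permOf (qcode g), (stab3_mem (hq g)).1⟩) (fun a b => ?_),
    fun a b e => qcode_inj.1 a b ?_⟩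
  · apply Subtype.ext
    show permOf (qcode (a * b)) = permOf (qcode a) * permOf (qcode b)
    rw [qcode_ok, (permOf_comp (stab3_mem (hq a)).2.1 (stab3_mem (hq b)).2.1).2]
  · exact code_ext (stab3_mem (hq a)).2.2.1 (stab3_mem (hq b)).2.2.1 (stab3_mem (hq a)).2.1
      (stab3_mem (hq b)).2.1 (congrArg Subtype.val e)

theorem stab3_props {G : Type*} [Group G] (e : G ≃* grp3) :
    (∀ Q : Sylow 3 G, (Q : Subgroup G).Normal ∧ Nat.card Q = 9 ∧ ∀ x ∈ (Q : Subgroup G), x ^ 3 = 1) ∧
      ∀ P : Sylow 2 G, Nonempty (P ≃* QuaternionGroup 2) := by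
  classical
  haveI : Finite G := Finite.of_equiv _ e.symm.toEquiv
  haveI := Fact.mk Nat.prime_three
  haveI := Fact.mk Nat.prime_two
  obtain ⟨h72, h9, hexp⟩ := grp3_card
  have hG : Nat.card G = 72 := by rw [Nat.card_congr e.toEquiv, h72]
  have hf3 : (72 : ℕ).factorization 3 = 2 := by
    rw [show (72 : ℕ) = 3 ^ 2 * 8 by norm_num, Nat.factorization_mul (by norm_num) (by norm_num),
      Finsupp.add_apply, Nat.prime_three.factorization_pow, Finsupp.single_eq_same,
      Nat.factorization_eq_zero_of_not_dvd (by norm_num)]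
  have hf2 : (72 : ℕ).factorization 2 = 3 := by
    rw [show (72 : ℕ) = 2 ^ 3 * 9 by norm_num, Nat.factorization_mul (by norm_num) (by norm_num),
      Finsupp.add_apply, Nat.prime_two.factorization_pow, Finsupp.single_eq_same,
      Nat.factorization_eq_zero_of_not_dvd (by norm_num)]
  have h9G : Nat.card {x : G // x ^ 3 = 1} = 9 := by
    rw [← h9]
    refine Nat.card_congr (Equiv.subtypeEquiv e.toEquiv fun x => ?_)
    show x ^ 3 = 1 ↔ e x ^ 3 = 1
    rw [← map_pow, map_eq_one_iff _ e.injective]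
  have hQ : ∀ Q : Sylow 3 G, Nat.card Q = 9 ∧ (Q : Set G) = {x | x ^ 3 = 1} := by
    intro Q
    have hc : Nat.card Q = 9 := by rw [Q.card_eq_multiplicity, hG, hf3]; norm_num
    have hsub : (Q : Set G) ⊆ {x | x ^ 3 = 1} := by
      intro x hx
      have h : x ^ 9 = 1 := by
        have := pow_card_eq_one' (G := Q) (x := ⟨x, hx⟩)
        rw [hc] at this
        exact congrArg Subtype.val this
      show x ^ 3 = 1
      rw [← map_eq_one_iff _ e.injective, map_pow]
      exact hexp _ (by rw [← map_pow, h, map_one])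
    refine ⟨hc, Set.eq_of_subset_of_ncard_le hsub ?_ (Set.toFinite _)⟩
    rw [← Nat.card_coe_set_eq, ← Nat.card_coe_set_eq]
    exact le_of_eq (h9G.trans hc.symm)
  refine ⟨fun Q => ⟨⟨fun x hx g => ?_⟩, (hQ Q).1, fun x hx => ?_⟩, fun P => ?_⟩
  · have hx' : x ∈ (Q : Set G) := hx
    rw [(hQ Q).2] at hx'
    show g * x * g⁻¹ ∈ (Q : Set G)
    rw [(hQ Q).2]
    show (g * x * g⁻¹) ^ 3 = 1
    rw [conj_pow, show x ^ 3 = 1 from hx', mul_one, mul_inv_cancel]
  · have hx' : x ∈ (Q : Set G) := hx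
    rw [(hQ Q).2] at hx'
    exact hx'
  · obtain ⟨φ, hφ⟩ := quat_embeds
    let ψ : QuaternionGroup 2 →* G := e.symm.toMonoidHom.comp φ
    have hψ : Function.Injective ψ := e.symm.injective.comp hφ
    let P0 : Sylow 2 G := Sylow.ofCard ψ.range (by
      rw [Nat.card_congr (MonoidHom.ofInjective hψ).toEquiv.symm, hG, hf2,
        Nat.card_eq_fintype_card, QuaternionGroup.card]
      norm_num)
    exact ⟨(Sylow.equiv P P0).trans (MonoidHom.ofInjective hψ).symm⟩

theorem dodecad_three_points (d : Finset GolayPt) (hd : d ∈ dodecads) (p q r : GolayPt)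
    (hp : p ∈ d) (hq : q ∈ d) (hr : r ∈ d) (hpq : p ≠ q) (hpr : p ≠ r) (hqr : q ≠ r) :
    Nonempty (↥(MulAction.stabilizer M24 d ⊓ MulAction.stabilizer M24 p ⊓ MulAction.stabilizer M24 q ⊓
      MulAction.stabilizer M24 r) ≃* grp3) := by
  obtain ⟨c, hc, rfl⟩ := exists_mem_M24_sqMask hd
  have hb : ∀ i : Fin 3, c (pt i) ∈ c • bset sqMask := fun i =>
    Finset.smul_mem_smul_finset (by fin_cases i <;> decide +kernel)
  obtain ⟨g, hg, hgd, hgi⟩ := exists_mem_dodecad_stab hd (k := 3) (by norm_num)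
    ⟨fun i : Fin 3 => c (pt i), fun a b e => by
      have := congrArg idx (c.injective e)
      rw [idx_pt (by omega), idx_pt (by omega)] at this
      exact Fin.ext this⟩
    ⟨![p, q, r], by
      intro a b e
      fin_cases a <;> fin_cases b <;> simp_all [hpq.symm, hpr.symm, hqr.symm]⟩
    hb (by intro i; fin_cases i <;> assumption)
  set h : Equiv.Perm GolayPt := g * c with hh
  have hM : h ∈ M24 := mul_mem hg hc
  have hd' : h • bset sqMask = c • bset sqMask := by rw [hh, mul_smul, hgd]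
  have hp' : h (pt 0) = p := hgi 0
  have hq' : h (pt 1) = q := hgi 1
  have hr' : h (pt 2) = r := hgi 2
  have key : ∀ {β : Type} [MulAction (Equiv.Perm GolayPt) β] (b : β) (σ : Equiv.Perm GolayPt),
      σ • h • b = h • b ↔ (h⁻¹ * σ * h) • b = b := by
    intro β _ b σ
    rw [← inv_smul_eq_iff, ← mul_smul, ← mul_smul, mul_assoc]
  refine ⟨{ toFun := fun σ => ⟨h⁻¹ * (σ.1.1) * h, ?_⟩
            invFun := fun τ => ⟨⟨h * τ.1 * h⁻¹, mul_mem (mul_mem hM τ.2.1.1.1.1) (inv_mem hM)⟩, ?_⟩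
            left_inv := fun σ => Subtype.ext (Subtype.ext (by
              show h * (h⁻¹ * σ.1.1 * h) * h⁻¹ = σ.1.1
              group))
            right_inv := fun τ => Subtype.ext (by
              show h⁻¹ * (h * τ.1 * h⁻¹) * h = τ.1
              group)
            map_mul' := fun a b => Subtype.ext (by
              show h⁻¹ * (a.1.1 * b.1.1) * h = h⁻¹ * a.1.1 * h * (h⁻¹ * b.1.1 * h)
              group) }⟩
  · obtain ⟨⟨⟨h1, h2⟩, h3⟩, h4⟩ := σ.2
    refine ⟨⟨⟨⟨M24.mul_mem (M24.mul_mem (M24.inv_mem hM) σ.1.2) hM, ?_⟩, ?_⟩, ?_⟩, ?_⟩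
    · exact (key _ _).1 (by rw [hd']; exact h1)
    · exact (key (pt 0) _).1 (by simp only [Equiv.Perm.smul_def, hp']; exact h2)
    · exact (key (pt 1) _).1 (by simp only [Equiv.Perm.smul_def, hq']; exact h3)
    · exact (key (pt 2) _).1 (by simp only [Equiv.Perm.smul_def, hr']; exact h4)
  · obtain ⟨⟨⟨⟨-, h1⟩, h2⟩, h3⟩, h4⟩ := τ.2
    have hσ : h⁻¹ * (h * τ.1 * h⁻¹) * h = τ.1 := by group
    refine ⟨⟨⟨?_, ?_⟩, ?_⟩, ?_⟩
    · have := (key (bset sqMask) (h * τ.1 * h⁻¹)).2 (by rw [hσ]; exact h1)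
      rw [hd'] at this; exact this
    · have := (key (pt 0) (h * τ.1 * h⁻¹)).2 (by rw [hσ]; exact h2)
      simp only [Equiv.Perm.smul_def, hp'] at this; exact this
    · have := (key (pt 1) (h * τ.1 * h⁻¹)).2 (by rw [hσ]; exact h3)
      simp only [Equiv.Perm.smul_def, hq'] at this; exact this
    · have := (key (pt 2) (h * τ.1 * h⁻¹)).2 (by rw [hσ]; exact h4)
      simp only [Equiv.Perm.smul_def, hr'] at this; exact this

end Cfsg.Agent.M24Orbits
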