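import Cfsg.Agent.M24Orbits.Classes
import Cfsg.Agent.M24Orbits.SixSets
import Cfsg.Agent.M24Orbits.Data2

/-! The fifteen trios through an octad. -/

set_option autoImplicit false
open Cfsg Cfsg.Agent.Golay
open scoped Pointwise

namespace Cfsg.Agent.M24Orbits

theorem contains_equivariant : Equivariant (fun R X : Fam => decide (R ⊆ X)) := by
  intro g R X
  exact decide_eq_decide.2 Finset.smul_finset_subset_smul_finset_iff

theorem trios_at (o : Finset GolayPt) (ho : o ∈ octads) :
    {T : Fam | T ∈ trios ∧ o ∈ T}.ncard = 15 ∧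
    ∀ T T' : Fam, T ∈ trios → T' ∈ trios → o ∈ T → o ∈ T' → ∃ g ∈ M24, g • o = o ∧ g • T = T' := by
  have key : ∃ Q ∈ partsOctTri, Q.2.2.2 = 15 ∧ decide (toSet rootOct ⊆ toSet Q.2.1) = true ∧
      ∀ P ∈ partsOctTri, decide (toSet rootOct ⊆ toSet P.2.1) = true → P.2.2.1 = Q.2.2.1 := by
    decide +kernel
  obtain ⟨Q, hQ, hn, hc, honly⟩ := key
  have hnd : (partsOctTri.map fun P => P.2.2.1).Nodup := by decide +kernel
  obtain ⟨h1, h2⟩ := class_of_cert okOctTri (fun _ hg _ => smul_mem_trios hg) trios_ncard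
    (fun P hP => roots_trio P (by simp only [List.mem_append]; exact Or.inl hP))
    contains_equivariant hQ hn hc
    (fun P hP e => List.inj_on_of_nodup_map hnd hP hQ (honly P hP e)) (octad_of_root ho)
  simp only [decide_eq_true_eq, Finset.singleton_subset_iff] at h1 h2
  refine ⟨h1, fun T T' hT hT' ho1 ho2 => ?_⟩
  obtain ⟨g, hg, hgo, hgT⟩ := h2 T T' hT hT' ho1 ho2
  exact ⟨g, hg, Finset.singleton_injective (by rw [← Finset.smul_finset_singleton]; exact hgo), hgT⟩

/-- Certificate for the stabilizer of an octad and a trio through it. -/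
theorem two_ok :
    ((gens2.all fun c => isAut c && actL c rootOct == rootOct && actL c trioA == trioA) &&
      (let l := collectL gens2 tree2 trioB' [trioB']
       l.length == 14 && distinctB l && l.all fun x => ascB x && trioB x &&
         x.contains (rootOct.getD 0 0) && x != trioA) &&
      trioB trioA && trioA.contains (rootOct.getD 0 0)) = true := by decide +kernel

theorem stab_two {T : Fam} (hT : T ∈ trios) (hoT : bset (rootOct.getD 0 0) ∈ T) (hne : T ≠ toSet trioA) :
    ∃ g ∈ M24, g • bset (rootOct.getD 0 0) = bset (rootOct.getD 0 0) ∧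
      g • toSet trioA = toSet trioA ∧ g • toSet trioB' = T := by
  classical
  have h := two_ok
  simp only [Bool.and_eq_true, beq_iff_eq, List.all_eq_true, List.contains_iff_mem, bne_iff_ne] at h
  obtain ⟨⟨⟨hg, ⟨⟨hlen, hd⟩, hl⟩⟩, hA⟩, hAm⟩ := h
  set H := M24 ⊓ MulAction.stabilizer (Equiv.Perm GolayPt) (toSet rootOct) ⊓
    MulAction.stabilizer (Equiv.Perm GolayPt) (toSet trioA)
  have hok : ∀ c ∈ gens2, permOK c = true ∧ permOf c ∈ H := by
    intro c hc
    obtain ⟨⟨h1, h2⟩, h3⟩ := hg c hc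
    have ho := permOK_of_isAut h1
    exact ⟨ho, ⟨permOf_mem_M24 h1, by show _ • _ = _; rw [← toSet_actL ho, h2]⟩,
      by show _ • _ = _; rw [← toSet_actL ho, h3]⟩
  set L := collectL gens2 tree2 trioB' [trioB']
  have hspec : ∀ x ∈ L, ∃ h ∈ H, h • toSet trioB' = toSet x :=
    collectL_spec gens2 H hok trioB' tree2 trioB' [trioB'] ⟨1, one_mem _, one_smul _ _⟩
      (by intro y hy; rw [List.mem_singleton] at hy; subst hy; exact ⟨1, one_mem _, one_smul _ _⟩)
  set o := bset (rootOct.getD 0 0)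
  have ho : o ∈ octads := octad_base
  have hinL : ∀ x ∈ L, toSet x ∈ trios ∧ o ∈ toSet x := fun x hx =>
    ⟨trio_of_list (hl x hx).1.1.2, mem_toSet.2 ⟨_, (hl x hx).1.2, rfl⟩⟩
  have hAT : toSet trioA ∈ trios ∧ o ∈ toSet trioA := ⟨trio_of_list hA, mem_toSet.2 ⟨_, hAm, rfl⟩⟩
  have hAasc : ascB trioA = true := by
    simp only [trioB, Bool.and_eq_true] at hA; exact hA.1.1
  have heq : ((((trioA :: L).map toSet).toFinset) : Set Fam) = {T : Fam | T ∈ trios ∧ o ∈ T} := by
    refine Set.eq_of_subset_of_ncard_le ?_ ?_ (Set.toFinite _)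
    · intro X hX
      simp only [Finset.mem_coe, List.mem_toFinset, List.mem_map, List.mem_cons] at hX
      obtain ⟨x, rfl | hx, rfl⟩ := hX
      exacts [hAT, hinL x hx]
    · rw [(trios_at o ho).1, Set.ncard_coe_finset, List.toFinset_card_of_nodup, List.length_map,
        List.length_cons, hlen]
      refine List.Nodup.map_on (fun x hx y hy e => toSet_injOn ?_ ?_ e)
        (List.nodup_cons.2 ⟨fun hm => (hl _ hm).2 rfl, nodup_of_distinctB hd⟩)
      · rcases List.mem_cons.1 hx with rfl | hx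
        exacts [hAasc, (hl x hx).1.1.1]
      · rcases List.mem_cons.1 hy with rfl | hy
        exacts [hAasc, (hl y hy).1.1.1]
  have hmem : T ∈ ((((trioA :: L).map toSet).toFinset) : Set Fam) := by rw [heq]; exact ⟨hT, hoT⟩
  simp only [Finset.mem_coe, List.mem_toFinset, List.mem_map, List.mem_cons] at hmem
  obtain ⟨x, rfl | hx, e⟩ := hmem
  · exact absurd e.symm hne
  obtain ⟨k, hk, hke⟩ := hspec x hx
  refine ⟨k, hk.1.1, ?_, hk.2, hke.trans e⟩
  have := hk.1.2
  rw [rootOct_eq] at this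
  exact Finset.singleton_injective (by rw [← Finset.smul_finset_singleton]; exact this)

theorem two_transitive (o : Finset GolayPt) (ho : o ∈ octads) (T₁ T₂ T₁' T₂' : Fam)
    (h1 : T₁ ∈ trios) (h2 : T₂ ∈ trios) (h1' : T₁' ∈ trios) (h2' : T₂' ∈ trios)
    (o1 : o ∈ T₁) (o2 : o ∈ T₂) (o1' : o ∈ T₁') (o2' : o ∈ T₂') (hne : T₁ ≠ T₂) (hne' : T₁' ≠ T₂') :
    ∃ g ∈ M24, g • o = o ∧ g • T₁ = T₁' ∧ g • T₂ = T₂' := by
  set o₀ := bset (rootOct.getD 0 0)
  obtain ⟨c, hc, hco⟩ := M24_octad_transitive (show o₀ ∈ octads from octad_base) ho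
  have h := two_ok
  simp only [Bool.and_eq_true, List.contains_iff_mem] at h
  have hAT : toSet trioA ∈ trios ∧ o₀ ∈ toSet trioA :=
    ⟨trio_of_list h.1.2, mem_toSet.2 ⟨_, h.2, rfl⟩⟩
  have norm : ∀ {U V : Fam}, U ∈ trios → V ∈ trios → o ∈ U → o ∈ V → U ≠ V →
      ∃ g ∈ M24, g • o₀ = o ∧ g • toSet trioA = U ∧ g • toSet trioB' = V := by
    intro U V hU hV oU oV huv
    have hU' : o₀ ∈ c⁻¹ • U := by rw [← inv_smul_smul c o₀, hco]; exact Finset.smul_mem_smul_finset oU
    obtain ⟨a, ha, hao, haA⟩ := (trios_at o₀ octad_base).2 (toSet trioA) (c⁻¹ • U) hAT.1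
      (smul_mem_trios (inv_mem hc) hU) hAT.2 hU'
    obtain ⟨b, hb, hbo, hbA, hbB⟩ := stab_two (smul_mem_trios (inv_mem ha) (smul_mem_trios (inv_mem hc) hV))
      (by
        show o₀ ∈ a⁻¹ • c⁻¹ • V
        rw [show o₀ = a⁻¹ • o₀ by rw [eq_inv_smul_iff, hao]]
        refine Finset.smul_mem_smul_finset ?_
        rw [← inv_smul_smul c o₀, hco]; exact Finset.smul_mem_smul_finset oV)
      (by
        intro e
        rw [inv_smul_eq_iff, inv_smul_eq_iff, haA, smul_inv_smul] at e
        exact huv e.symm)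
    refine ⟨c * a * b, mul_mem (mul_mem hc ha) hb, ?_, ?_, ?_⟩
    · rw [mul_smul, mul_smul, hbo, hao, hco]
    · rw [mul_smul, mul_smul, hbA, haA, smul_inv_smul]
    · rw [mul_smul, mul_smul, hbB, smul_inv_smul, smul_inv_smul]
  obtain ⟨g, hg, hgo, hg1, hg2⟩ := norm h1 h2 o1 o2 hne
  obtain ⟨k, hk, hko, hk1, hk2⟩ := norm h1' h2' o1' o2' hne'
  refine ⟨k * g⁻¹, mul_mem hk (inv_mem hg), ?_, ?_, ?_⟩
  · rw [mul_smul, ← hgo, inv_smul_smul, hko, hgo]
  · rw [mul_smul, ← hg1, inv_smul_smul, hk1]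
  · rw [mul_smul, ← hg2, inv_smul_smul, hk2]

theorem oct_six : ∃ E : Finset GolayPt, E ⊆ bset (rootOct.getD 0 0) ∧ E.card = 6 :=
  Finset.exists_subset_card_eq (by rw [card_bset]; decide +kernel)

/-- Check of the point fixer of the octad. -/
theorem fix16_ok :
    ((fix16.all fun c => isAut c && ((List.range 24).all fun i =>
        !(rootOct.getD 0 0).testBit i || app c i == i) &&
      ((partList gensOct (partsOctTri.getD 0 (.nil, [], 0, 0))).all fun x => actL c x == x)) &&
    fix16.length == 16 && decide fix16.Nodup && fix16.all (fun c => decide (c < 2 ^ 120))) = true := by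
  decide +kernel

/-- Packed code of a permutation. -/
theorem permOf_inj {a b : ℕ} (ha : permOK a = true) (hb : permOK b = true) (h : permOf a = permOf b) :
    ∀ i < 24, app a i = app b i := by
  intro i hi
  have := congrArg (fun σ : Equiv.Perm GolayPt => idx (σ (pt i))) h
  simpa [idx_permOf ha, idx_permOf hb, idx_pt hi] using this

theorem app_ext {a b : ℕ} (ha : a < 2 ^ 120) (hb : b < 2 ^ 120) (h : ∀ i < 24, app a i = app b i) :
    a = b := by
  refine Nat.eq_of_testBit_eq fun j => ?_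
  by_cases hj : j < 120
  · have := congrArg (fun n : ℕ => n.testBit (j % 5)) (h (j / 5) (by omega))
    simp only [app, Nat.testBit_and, Nat.testBit_shiftRight] at this
    rw [show 5 * (j / 5) + j % 5 = j by omega] at this
    have h31 : (31 : ℕ).testBit (j % 5) = true := by
      have : j % 5 < 5 := Nat.mod_lt _ (by norm_num)
      interval_cases j % 5 <;> decide
    simpa [h31] using this
  · have hpow : (2 : ℕ) ^ 120 ≤ 2 ^ j := Nat.pow_le_pow_right (by norm_num) (by omega)
    rw [Nat.testBit_lt_two_pow (lt_of_lt_of_le ha hpow), Nat.testBit_lt_two_pow (lt_of_lt_of_le hb hpow)]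

theorem pointwise_fixes {g : Equiv.Perm GolayPt} (hg : g ∈ M24)
    (hfix : ∀ p ∈ bset (rootOct.getD 0 0), g p = p) {T : Fam} (hT : T ∈ trios)
    (hoT : bset (rootOct.getD 0 0) ∈ T) : g • T = T := by
  classical
  have h := fix16_ok
  simp only [Bool.and_eq_true, List.all_eq_true, beq_iff_eq, decide_eq_true_eq, Bool.or_eq_true,
    Bool.not_eq_true'] at h
  obtain ⟨⟨⟨hall, hlen⟩, hnd⟩, hlt⟩ := h
  set o := bset (rootOct.getD 0 0) with hodef
  have ho : o ∈ octads := octad_base
  have hmemc : ∀ c ∈ fix16, permOf c ∈ fixer o := by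
    intro c hc
    obtain ⟨⟨hA, hI⟩, -⟩ := hall c hc
    refine mem_fixer.2 ⟨permOf_mem_M24 hA, fun p hp => ?_⟩
    apply idx_injective
    rw [idx_permOf (permOK_of_isAut hA)]
    rcases hI (idx p) (List.mem_range.2 (idx_lt p)) with e | e
    · rw [mem_bset, e] at hp; simp at hp
    · exact e
  obtain ⟨E, hEo, hE6⟩ := oct_six
  have hle : fixer o ≤ fixer E := fun x hx =>
    mem_fixer.2 ⟨(mem_fixer.1 hx).1, fun p hp => (mem_fixer.1 hx).2 p (hEo hp)⟩
  have hcard : Nat.card (fixer o) ≤ 16 :=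
    (Subgroup.card_le_of_le hle).trans_eq ((fixer_card E hE6).1 ⟨o, ho, hEo⟩)
  have heq : ((fix16.map permOf).toFinset : Set (Equiv.Perm GolayPt)) = (fixer o : Set (Equiv.Perm GolayPt)) := by
    refine Set.eq_of_subset_of_ncard_le ?_ ?_ (Set.toFinite _)
    · intro x hx
      simp only [Finset.mem_coe, List.mem_toFinset, List.mem_map] at hx
      obtain ⟨c, hc, rfl⟩ := hx
      exact hmemc c hc
    · rw [Set.ncard_coe_finset, List.toFinset_card_of_nodup, List.length_map, hlen,
        ← Nat.card_coe_set_eq]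
      · exact hcard
      · exact List.Nodup.map_on (fun a ha b hb e => app_ext (hlt a ha) (hlt b hb)
          (permOf_inj (permOK_of_isAut (hall a ha).1.1) (permOK_of_isAut (hall b hb).1.1) e)) hnd
  have hgm : g ∈ ((fix16.map permOf).toFinset : Set (Equiv.Perm GolayPt)) := by
    rw [heq]; exact mem_fixer.2 ⟨hg, hfix⟩
  simp only [Finset.mem_coe, List.mem_toFinset, List.mem_map] at hgm
  obtain ⟨c, hc, rfl⟩ := hgm
  obtain ⟨⟨hA, -⟩, hact⟩ := hall c hc
  have hroots : ∀ P ∈ partsOctTri, toSet P.2.1 ∈ trios := fun P hP =>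
    roots_trio P (by simp only [List.mem_append]; exact Or.inl hP)
  obtain ⟨-, -, hinv, hcov⟩ := partsOK_spec okOctTri (fun _ hg _ => smul_mem_trios hg) trios_ncard hroots
  obtain ⟨x, hx, rfl⟩ := hcov T hT
  obtain ⟨P, hP, hxP⟩ := List.mem_flatMap.1 hx
  have hk : partList gensOct P ⊆ partList gensOct (partsOctTri.getD 0 (.nil, [], 0, 0)) := by
    have hh : decide (toSet rootOct ⊆ toSet P.2.1) = true := by
      obtain ⟨h0, hh0, e⟩ := collectL_spec gensOct _ (partsOK_gens okOctTri) P.2.1 P.1 P.2.1 [P.2.1]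
        ⟨1, one_mem _, one_smul _ _⟩
        (by intro y hy; rw [List.mem_singleton] at hy; subst hy; exact ⟨1, one_mem _, one_smul _ _⟩) x hxP
      rw [decide_eq_true_eq, ← Finset.smul_finset_subset_smul_finset_iff (a := h0), e,
        show h0 • toSet rootOct = toSet rootOct from hh0.2, rootOct_eq, Finset.singleton_subset_iff]
      exact hoT
    have hfirst : ∀ P ∈ partsOctTri, decide (toSet rootOct ⊆ toSet P.2.1) = true →
        P.2.2.1 = (partsOctTri.getD 0 (.nil, [], 0, 0)).2.2.1 := by decide +kernel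
    have hnd3 : (partsOctTri.map fun P => P.2.2.1).Nodup := by decide +kernel
    have : P = partsOctTri.getD 0 (.nil, [], 0, 0) := by
      refine List.inj_on_of_nodup_map hnd3 hP ?_ (hfirst P hP hh)
      rw [List.getD_eq_getElem _ _ (show 0 < partsOctTri.length by decide +kernel)]
      exact List.getElem_mem _
    rw [this]; exact fun _ h => h
  rw [← toSet_actL (permOK_of_isAut hA), hact x (hk hxP)]

/-- The tetrad data check. -/
def tetOK (t : ℕ × ℕ × ℕ) : Bool :=
  let o := rootOct.getD 0 0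
  let a' := 16777215 ^^^ o ^^^ t.2.1
  let b' := 16777215 ^^^ o ^^^ t.2.2
  pc t.1 == 4 && t.1 &&& o == t.1 && inC t.2.1 && pc t.2.1 == 8 && t.2.1 &&& o == 0 &&
    inC t.2.2 && pc t.2.2 == 8 && t.2.2 &&& o == 0 && decide (t.1 < 16777216) &&
    [t.2.1, a'].all fun x => [t.2.2, b'].all fun y => inC (t.1 ^^^ (x &&& y))

/-- Crossing check. -/
def crossOK (r : ℕ × List ((ℕ × ℕ × ℕ) × (ℕ × ℕ × ℕ))) : Bool :=
  let o := rootOct.getD 0 0
  (r.2.all fun ab => tetOK ab.1 && tetOK ab.2 && ab.1.1 &&& ab.2.1 == 2 ^ r.1) &&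
  ((List.range 24).all fun i => i == r.1 || r.2.any fun ab =>
    [ab.1.1, o ^^^ ab.1.1].all fun x => [ab.2.1, o ^^^ ab.2.1].all fun y =>
      !(pc (x &&& y) == 1 && (x &&& y).testBit i))

theorem crossings_ok : (crossings.all crossOK &&
    ((List.range 24).all fun i => !(rootOct.getD 0 0).testBit i ||
      crossings.any fun r => r.1 == i)) = true := by decide +kernel

theorem trios_fix_tetrad {g : Equiv.Perm GolayPt} (hg : g ∈ M24)
    (hgo : g • bset (rootOct.getD 0 0) = bset (rootOct.getD 0 0))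
    (hall : ∀ T ∈ trios, bset (rootOct.getD 0 0) ∈ T → g • T = T) {t : ℕ × ℕ × ℕ}
    (ht : tetOK t = true) :
    g • bset t.1 = bset t.1 ∨ g • bset t.1 = bset (rootOct.getD 0 0 ^^^ t.1) := by
  classical
  obtain ⟨A, a, b⟩ := t
  set O := rootOct.getD 0 0
  simp only [tetOK, Bool.and_eq_true, beq_iff_eq, decide_eq_true_eq, List.all_eq_true,
    List.mem_cons, List.not_mem_nil, or_false] at ht
  obtain ⟨⟨⟨⟨⟨⟨⟨⟨⟨hA4, hAo⟩, ha⟩, ha8⟩, hao⟩, hb⟩, hb8⟩, hbo⟩, hAlt⟩, hcong⟩ := ht
  set o := bset O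
  have ho : o ∈ octads := octad_base
  have himage : ∀ m : ℕ, inC m = true → pc m = 8 → m &&& O = 0 →
      g • bset m = bset m ∨ g • bset m = bset (16777215 ^^^ O ^^^ m) := by
    intro m hm hm8 hmo
    have hmoct : bset m ∈ octads := octad_of_mask (by simp [hm, hm8])
    have hdj : Disjoint o (bset m) := by
      rw [Finset.disjoint_iff_inter_eq_empty, ← bset_and, Nat.and_comm, hmo, bset_zero]
    set w := bset (16777215 ^^^ O ^^^ m)
    have hw : w = (o ∪ bset m)ᶜ := by
      show bset (16777215 ^^^ O ^^^ m) = _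
      rw [Nat.xor_assoc, bset_compl, bset_xor, hdj.symmDiff_eq_sup]; rfl
    have hwc : w.card = 8 := by
      rw [hw, Finset.card_compl, card_golayPt, Finset.card_union_of_disjoint hdj, card_octad ho,
        card_octad hmoct]
    have hwoct : w ∈ octads := by
      refine ⟨?_, hwc⟩
      rw [hw]
      refine compl_mem_supports ?_
      have he : o ∪ bset m = symmDiff o (bset m) := hdj.symmDiff_eq_sup.symm
      rw [he]
      exact symmDiff_mem_supports ho.1 hmoct.1
    have hdw : Disjoint o w ∧ Disjoint (bset m) w := by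
      rw [hw]
      constructor
      · exact Finset.disjoint_left.2 fun x hx hx' => (Finset.mem_compl.1 hx') (Finset.mem_union_left _ hx)
      · exact Finset.disjoint_left.2 fun x hx hx' => (Finset.mem_compl.1 hx') (Finset.mem_union_right _ hx)
    have hne1 : o ≠ bset m := octad_ne_of_disjoint ho hdj
    have hT : ({o, bset m, w} : Fam) ∈ trios := by
      refine ⟨?_, ?_, ?_⟩
      · rw [Finset.card_insert_of_notMem, Finset.card_pair (octad_ne_of_disjoint hmoct hdw.2)]
        simp [hne1, octad_ne_of_disjoint ho hdw.1]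
      · simp [ho, hmoct, hwoct]
      · simp only [Finset.mem_insert, Finset.mem_singleton]
        rintro x (rfl | rfl | rfl) y (rfl | rfl | rfl) hne <;>
          first
            | exact absurd rfl hne
            | exact hdj
            | exact hdj.symm
            | exact hdw.1
            | exact hdw.1.symm
            | exact hdw.2
            | exact hdw.2.symm
    have := hall _ hT (by simp)
    have hmem : g • bset m ∈ ({o, bset m, w} : Fam) := by
      rw [← this]; exact Finset.smul_mem_smul_finset (by simp)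
    simp only [Finset.mem_insert, Finset.mem_singleton] at hmem
    rcases hmem with e | e | e
    · exact absurd ((MulAction.injective g) (e.trans hgo.symm)) hne1.symm
    · exact Or.inl e
    · exact Or.inr e
  have hsupp : ∀ x y : ℕ, inC (A ^^^ (x &&& y)) = true →
      symmDiff (bset A) (bset (x &&& y)) ∈ supports (golayCode : Set (GolayPt → ZMod 2)) := by
    intro x y h
    rw [← bset_xor]; exact bset_mem_supports h
  obtain ⟨x, hx, hgx⟩ : ∃ x, (x = a ∨ x = 16777215 ^^^ O ^^^ a) ∧ g • bset a = bset x := by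
    rcases himage a ha ha8 hao with e | e
    exacts [⟨_, Or.inl rfl, e⟩, ⟨_, Or.inr rfl, e⟩]
  obtain ⟨y, hy, hgy⟩ : ∃ y, (y = b ∨ y = 16777215 ^^^ O ^^^ b) ∧ g • bset b = bset y := by
    rcases himage b hb hb8 hbo with e | e
    exacts [⟨_, Or.inl rfl, e⟩, ⟨_, Or.inr rfl, e⟩]
  have h1 := smul_mem_supports hg (hsupp a b (hcong a (Or.inl rfl) b (Or.inl rfl)))
  rw [Finset.smul_finset_symmDiff, bset_and, Finset.smul_finset_inter, hgx, hgy, ← bset_and] at h1
  have h2 := hsupp x y (hcong x hx y hy)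
  have h3 := symmDiff_mem_supports h1 h2
  rw [symmDiff_comm (bset A), symmDiff_assoc, ← symmDiff_assoc (bset (x &&& y)), symmDiff_self,
    bot_symmDiff] at h3
  have hAc : (bset A).card = 4 := by rw [card_bset, hA4]
  rcases congr_small (s := g • bset A) (t := bset A) (by rw [Finset.card_smul_finset, hAc])
    (by rw [hAc]) h3 with e | ⟨-, -, hd, hu⟩
  · exact Or.inl e
  right
  have hsub : g • bset A ∪ bset A ⊆ o := by
    have hAo' : bset A ⊆ o := by
      intro p hp
      have : p ∈ bset (A &&& O) := by rw [hAo]; exact hp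
      rw [bset_and] at this
      exact (Finset.mem_inter.1 this).2
    refine Finset.union_subset ?_ hAo'
    rw [← hgo]
    exact Finset.smul_finset_subset_smul_finset hAo'
  have he : g • bset A ∪ bset A = o := Finset.eq_of_subset_of_card_le hsub
    (by rw [card_octad hu, card_octad ho])
  rw [bset_xor]
  have hs : symmDiff (g • bset A) (bset A) = o := by rw [hd.symmDiff_eq_sup]; exact he
  rw [show bset O = o from rfl, ← hs, symmDiff_assoc, symmDiff_self, symmDiff_bot]

theorem fixes_pointwise {g : Equiv.Perm GolayPt} (hg : g ∈ M24)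
    (hgo : g • bset (rootOct.getD 0 0) = bset (rootOct.getD 0 0))
    (hall : ∀ T ∈ trios, bset (rootOct.getD 0 0) ∈ T → g • T = T) :
    ∀ p ∈ bset (rootOct.getD 0 0), g p = p := by
  intro p hp
  have h := crossings_ok
  simp only [Bool.and_eq_true, List.all_eq_true, Bool.or_eq_true, Bool.not_eq_true',
    List.any_eq_true, beq_iff_eq] at h
  obtain ⟨hc, hcov⟩ := h
  rcases hcov (idx p) (List.mem_range.2 (idx_lt p)) with e | ⟨r, hr, hri⟩
  · rw [mem_bset, e] at hp; simp at hp
  have hr' := hc r hr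
  simp only [crossOK, Bool.and_eq_true, List.all_eq_true, Bool.or_eq_true, List.any_eq_true,
    beq_iff_eq, List.mem_cons, List.not_mem_nil, or_false, Bool.not_eq_true'] at hr'
  obtain ⟨hab, hi⟩ := hr'
  rcases hi (idx (g p)) (List.mem_range.2 (idx_lt _)) with e | ⟨⟨A, B⟩, hAB, hx⟩
  · exact idx_injective (e.trans hri)
  exfalso
  obtain ⟨⟨hA, hB⟩, hmeet⟩ := hab _ hAB
  obtain ⟨x, hx', hgA⟩ : ∃ x, (x = A.1 ∨ x = rootOct.getD 0 0 ^^^ A.1) ∧ g • bset A.1 = bset x := by
    rcases trios_fix_tetrad hg hgo hall hA with e | e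
    exacts [⟨_, Or.inl rfl, e⟩, ⟨_, Or.inr rfl, e⟩]
  obtain ⟨y, hy', hgB⟩ : ∃ y, (y = B.1 ∨ y = rootOct.getD 0 0 ^^^ B.1) ∧ g • bset B.1 = bset y := by
    rcases trios_fix_tetrad hg hgo hall hB with e | e
    exacts [⟨_, Or.inl rfl, e⟩, ⟨_, Or.inr rfl, e⟩]
  have hxy : bset (x &&& y) = g • bset (A.1 &&& B.1) := by
    rw [bset_and, bset_and, Finset.smul_finset_inter, hgA, hgB]
  have hmeet' : A.1 &&& B.1 = 2 ^ r.1 := hmeet
  have hpm : p ∈ bset (A.1 &&& B.1) := by
    rw [hmeet', mem_bset, hri, Nat.testBit_two_pow]; simp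
  have hone : pc (x &&& y) = 1 := by
    rw [← card_bset, hxy, Finset.card_smul_finset, hmeet']
    rw [Finset.card_eq_one]
    refine ⟨p, ?_⟩
    ext q
    rw [mem_bset, Nat.testBit_two_pow, Finset.mem_singleton, hri]
    simp only [decide_eq_true_eq]
    exact ⟨fun e => idx_injective e.symm, fun e => by rw [e]⟩
  have hbit : (x &&& y).testBit (idx (g p)) = true := by
    rw [← mem_bset, hxy]; exact Finset.smul_mem_smul_finset hpm
  have := hx x hx' y hy'
  simp [hone, hbit] at this

theorem kernel_iff (o : Finset GolayPt) (ho : o ∈ octads) (g : Equiv.Perm GolayPt) (hg : g ∈ M24)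
    (hgo : g • o = o) :
    (∀ T ∈ trios, o ∈ T → g • T = T) ↔ ∀ p ∈ o, g p = p := by
  obtain ⟨c, hc, rfl⟩ := M24_octad_transitive (show bset (rootOct.getD 0 0) ∈ octads from octad_base) ho
  set o₀ := bset (rootOct.getD 0 0)
  have hk : c⁻¹ * g * c ∈ M24 := mul_mem (mul_mem (inv_mem hc) hg) hc
  have hko : (c⁻¹ * g * c) • o₀ = o₀ := by rw [mul_smul, mul_smul, hgo, inv_smul_smul]
  constructor
  · intro hall p hp
    have hkall : ∀ T ∈ trios, o₀ ∈ T → (c⁻¹ * g * c) • T = T := by
      intro T hT hoT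
      rw [mul_smul, mul_smul, hall (c • T) (smul_mem_trios hc hT) (Finset.smul_mem_smul_finset hoT),
        inv_smul_smul]
    rw [← Finset.inv_smul_mem_iff] at hp
    have := fixes_pointwise hk hko hkall _ hp
    simp only [Equiv.Perm.mul_apply, Equiv.Perm.smul_def, Equiv.Perm.coe_inv,
      Equiv.apply_symm_apply] at this
    exact c.symm.injective this
  · intro hfix T hT hoT
    have hkfix : ∀ q ∈ o₀, (c⁻¹ * g * c) q = q := by
      intro q hq
      simp only [Equiv.Perm.mul_apply]
      rw [hfix (c q) (Finset.smul_mem_smul_finset hq), Equiv.Perm.coe_inv, Equiv.symm_apply_apply]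
    have := pointwise_fixes hk hkfix (smul_mem_trios (inv_mem hc) hT)
      (by show o₀ ∈ c⁻¹ • T; rw [← inv_smul_smul c o₀]; exact Finset.smul_mem_smul_finset hoT)
    rw [mul_smul, mul_smul, smul_inv_smul] at this
    exact MulAction.injective c⁻¹ this

end Cfsg.Agent.M24Orbits
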